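import Mathlib
import Cfsg.Prelude.Def_Classical

/-!
Quadratic forms over the field of two elements, as functions with a bilinear polar:
character sums (the Arf invariant), translates, and the two standard forms.
-/

namespace CfsgLib.Generators.BinaryForms

open Module

/-- The sign character of `ZMod 2`. -/
def chi (x : ZMod 2) : ℤ := if x = 0 then 1 else -1

theorem chi_add : ∀ x y : ZMod 2, chi (x + y) = chi x * chi y := by decide

theorem two_eq_zero : (2 : ZMod 2) = 0 := rfl

theorem zero_or_one : ∀ x : ZMod 2, x = 0 ∨ x = 1 := by decide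

theorem chi_injective : Function.Injective chi := by unfold Function.Injective; decide

section General

variable {V : Type*} [AddCommGroup V] [Module (ZMod 2) V] {q : V → ZMod 2} {b : V →ₗ[ZMod 2] V →ₗ[ZMod 2] ZMod 2}

theorem add_self (v : V) : v + v = 0 := by
  rw [← two_smul (ZMod 2) v, show (2 : ZMod 2) = 0 from rfl, zero_smul]

theorem map_zero_of_polar (hq : ∀ u v, q (u + v) = q u + q v + b u v) : q 0 = 0 := by
  have := hq 0 0
  simp only [add_zero, map_zero] at this
  linear_combination -this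

theorem polar_self (hq : ∀ u v, q (u + v) = q u + q v + b u v) (v : V) : b v v = 0 := by
  have := hq v v
  rw [add_self, map_zero_of_polar hq] at this
  linear_combination -this - q v * two_eq_zero

theorem polar_comm (hq : ∀ u v, q (u + v) = q u + q v + b u v) (u v : V) : b u v = b v u := by
  have h1 := hq u v
  have h2 := hq v u
  rw [add_comm v u] at h2
  linear_combination h2 - h1

/-- A translate `q + b(·, w)` with `q w = 0` is equivalent to `q`. -/
theorem exists_equiv_translate (hq : ∀ u v, q (u + v) = q u + q v + b u v) {w : V} (hw : q w = 0) :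
    ∃ g : V ≃ₗ[ZMod 2] V, ∀ v, q v + b v w = q (g v) := by
  let f : V →ₗ[ZMod 2] V := LinearMap.id + (b.flip w).smulRight w
  have hf : ∀ v, f v = v + b v w • w := fun v => rfl
  have hinv : ∀ v, f (f v) = v := fun v => by
    rw [hf, hf, map_add, LinearMap.add_apply, map_smul, LinearMap.smul_apply, polar_self hq, smul_zero, add_zero,
      add_assoc, add_self, add_zero]
  refine ⟨LinearEquiv.ofLinear f f (LinearMap.ext hinv) (LinearMap.ext hinv), fun v => ?_⟩
  show _ = q (f v)
  rw [hf, hq, map_smul]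
  have key : ∀ c d : ZMod 2, d + c = d + q (c • w) + c * c := by
    intro c d
    rcases zero_or_one c with rfl | rfl <;> simp [map_zero_of_polar hq, hw]
  rw [smul_eq_mul]
  exact key (b v w) (q v)

/-- The character sum. -/
def charSum [Fintype V] (q : V → ZMod 2) : ℤ := ∑ v, chi (q v)

theorem charSum_congr [Fintype V] {W : Type*} [AddCommGroup W] [Module (ZMod 2) W] [Fintype W] (g : V ≃ₗ[ZMod 2] W)
    {q' : W → ZMod 2} (h : ∀ v, q v = q' (g v)) : charSum q = charSum q' := by
  unfold charSum
  rw [← g.toEquiv.sum_comp (fun w => chi (q' w))]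
  exact Finset.sum_congr rfl fun v _ => by rw [h]; rfl

theorem charSum_translate [Fintype V] (hq : ∀ u v, q (u + v) = q u + q v + b u v) (w : V) :
    charSum (fun v => q v + b v w) = chi (q w) * charSum q := by
  unfold charSum
  rw [Finset.mul_sum, ← Equiv.sum_comp (Equiv.addRight w) (fun v => chi (q w) * chi (q v))]
  refine Finset.sum_congr rfl fun v _ => ?_
  rw [Equiv.coe_addRight, hq, ← chi_add]
  congr 1
  linear_combination (-q w) * two_eq_zero

theorem card_zeros_add [Fintype V] (q : V → ZMod 2) :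
    2 * (Nat.card {v // q v = 0} : ℤ) = Nat.card V + charSum q := by
  classical
  rw [Nat.card_eq_fintype_card, Fintype.card_subtype, Nat.card_eq_fintype_card, Finset.card_filter, charSum,
    ← Finset.card_univ, Finset.card_eq_sum_ones, Nat.cast_sum, Nat.cast_sum, Finset.mul_sum, ← Finset.sum_add_distrib]
  refine Finset.sum_congr rfl fun v _ => ?_
  unfold chi
  split_ifs <;> simp

theorem card_ones_add [Fintype V] (q : V → ZMod 2) :
    2 * (Nat.card {v // q v = 1} : ℤ) = Nat.card V - charSum q := by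
  classical
  have h1 : ∀ v, q v = 1 ↔ ¬ q v = 0 := fun v => by generalize q v = x; revert x; decide
  rw [Nat.card_eq_fintype_card, Fintype.card_subtype, Nat.card_eq_fintype_card, Finset.card_filter, charSum,
    ← Finset.card_univ, Finset.card_eq_sum_ones, Nat.cast_sum, Nat.cast_sum, Finset.mul_sum, ← Finset.sum_sub_distrib]
  refine Finset.sum_congr rfl fun v _ => ?_
  unfold chi
  simp only [h1]
  split_ifs <;> simp

/-- Functions with the polar of `q` are the translates of `q`. -/
theorem exists_unique_translate [FiniteDimensional (ZMod 2) V] (hq : ∀ u v, q (u + v) = q u + q v + b u v)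
    (hb : ∀ u, (∀ v, b u v = 0) → u = 0) {q' : V → ZMod 2} (hq' : ∀ u v, q' (u + v) = q' u + q' v + b u v) :
    ∃! w, q' = fun v => q v + b v w := by
  have hinj : Function.Injective b.flip := by
    rw [← LinearMap.ker_eq_bot, eq_bot_iff]
    intro u hu
    rw [Submodule.mem_bot]
    exact hb u fun v => by rw [polar_comm hq]; exact LinearMap.congr_fun (LinearMap.mem_ker.mp hu) v
  let d : V →+ ZMod 2 := AddMonoidHom.mk' (fun v => q' v - q v) fun u v => by simp only [hq, hq']; ring
  obtain ⟨w, hw⟩ := ((LinearMap.injective_iff_surjective_of_finrank_eq_finrank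
    (Subspace.dual_finrank_eq (K := ZMod 2) (V := V)).symm).mp hinj) (d.toZModLinearMap 2)
  refine ⟨w, funext fun v => ?_, fun w' hw' => hinj ?_⟩
  · have h : b v w = q' v - q v := LinearMap.congr_fun hw v
    rw [h, add_sub_cancel]
  · rw [hw]
    refine LinearMap.ext fun v => ?_
    show b v w' = q' v - q v
    rw [hw', add_sub_cancel_left]

theorem finrank_isotropic_le [FiniteDimensional (ZMod 2) V] (hq : ∀ u v, q (u + v) = q u + q v + b u v)
    (hb : ∀ u, (∀ v, b u v = 0) → u = 0) {m : ℕ} (hV : finrank (ZMod 2) V = 2 * m) (U : Submodule (ZMod 2) V)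
    (hU : ∀ u ∈ U, q u = 0) :
    finrank (ZMod 2) U ≤ m ∧ (finrank (ZMod 2) U = m → ∀ v, (∀ u ∈ U, b v u = 0) → v ∈ U) := by
  have hnd : LinearMap.BilinForm.Nondegenerate b := ⟨hb, fun v hv => hb v fun u => by rw [polar_comm hq]; exact hv u⟩
  have h := LinearMap.BilinForm.finrank_orthogonal hnd U
  have hle : U ≤ LinearMap.BilinForm.orthogonal b U := fun u hu n hn => by
    have := hq n u
    rw [hU _ hn, hU _ hu, hU _ (U.add_mem hn hu)] at this
    show b n u = 0
    linear_combination -this
  have h2 := Submodule.finrank_mono hle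
  have h3 := Submodule.finrank_le U
  rw [hV] at h h3
  refine ⟨by omega, fun hm v hv => ?_⟩
  have := Submodule.eq_of_le_of_finrank_eq hle (by omega)
  rw [this]
  intro n hn
  show b n v = 0
  rw [polar_comm hq]; exact hv n hn

/-- With a maximal totally singular subspace the character sum is positive. -/
theorem charSum_eq_of_lagrangian [Fintype V] [FiniteDimensional (ZMod 2) V]
    (hq : ∀ u v, q (u + v) = q u + q v + b u v) (U : Submodule (ZMod 2) V) (hU : ∀ u ∈ U, q u = 0)
    (hmax : ∀ v, (∀ u ∈ U, b v u = 0) → v ∈ U) : charSum q = Nat.card U := by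
  classical
  have key : ∀ v, (∑ u : U, chi (q (v + u))) = if v ∈ U then (Nat.card U : ℤ) else 0 := by
    intro v
    split_ifs with hv
    · rw [Finset.sum_congr rfl (g := fun _ => (1 : ℤ)) fun u _ => by rw [hU _ (U.add_mem hv u.2)]; rfl]
      simp [Nat.card_eq_fintype_card]
    · obtain ⟨u₀, hu₀, hne⟩ : ∃ u₀ ∈ U, b v u₀ ≠ 0 := by
        by_contra hc; push Not at hc; exact hv (hmax v hc)
      have hb1 : chi (b v u₀) = -1 := if_neg hne
      have hs : ∑ u : U, chi (q (v + u)) = -∑ u : U, chi (q (v + u)) := by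
        conv_lhs => rw [← Equiv.sum_comp (Equiv.addRight (⟨u₀, hu₀⟩ : U))]
        rw [← Finset.sum_neg_distrib]
        refine Finset.sum_congr rfl fun u _ => ?_
        rw [Equiv.coe_addRight, Submodule.coe_add, ← add_assoc, hq (v + u), hU _ hu₀, map_add, LinearMap.add_apply,
          show b (u : V) u₀ = 0 from by
            have h := hq (u : V) u₀
            rw [hU _ u.2, hU _ hu₀, hU _ (U.add_mem u.2 hu₀)] at h
            linear_combination -h]
        simp only [add_zero, chi_add, hb1]
        ring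
      omega
  have h := Finset.sum_congr (rfl : (Finset.univ : Finset V) = _) fun v _ => key v
  have e : ∀ u : U, ∑ x, chi (q (x + (u : V))) = charSum q := fun u =>
    Equiv.sum_comp (Equiv.addRight (u : V)) (fun v => chi (q v))
  rw [Finset.sum_comm, Finset.sum_congr rfl (fun u _ => e u),
    Finset.sum_const, Finset.card_univ, ← Finset.sum_filter, Finset.sum_const, ← Fintype.card_subtype, nsmul_eq_mul,
    nsmul_eq_mul, ← Nat.card_eq_fintype_card] at h
  exact mul_left_cancel₀ (Nat.cast_ne_zero.mpr Nat.card_pos.ne') h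

end General

/-- The polar of the plus form. -/
def plusBilin (m : ℕ) : ((Fin m ⊕ Fin m) → ZMod 2) →ₗ[ZMod 2] ((Fin m ⊕ Fin m) → ZMod 2) →ₗ[ZMod 2] ZMod 2 :=
  LinearMap.mk₂ _ (fun u v => ∑ i : Fin m, (u (.inl i) * v (.inr i) + u (.inr i) * v (.inl i)))
    (fun u u' v => by rw [← Finset.sum_add_distrib]; exact Finset.sum_congr rfl fun i _ => by simp only [Pi.add_apply]; ring)
    (fun c u v => by rw [Finset.smul_sum]; exact Finset.sum_congr rfl fun i _ => by simp only [Pi.smul_apply, smul_eq_mul]; ring)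
    (fun u v v' => by rw [← Finset.sum_add_distrib]; exact Finset.sum_congr rfl fun i _ => by simp only [Pi.add_apply]; ring)
    (fun c u v => by rw [Finset.smul_sum]; exact Finset.sum_congr rfl fun i _ => by simp only [Pi.smul_apply, smul_eq_mul]; ring)

theorem quadFormPlus_add (m : ℕ) (u v : (Fin m ⊕ Fin m) → ZMod 2) :
    Cfsg.quadFormPlus m (ZMod 2) (u + v) = Cfsg.quadFormPlus m (ZMod 2) u + Cfsg.quadFormPlus m (ZMod 2) v + plusBilin m u v := by
  simp only [Cfsg.quadFormPlus, plusBilin, LinearMap.mk₂_apply, ← Finset.sum_add_distrib, Pi.add_apply]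
  exact Finset.sum_congr rfl fun i _ => by ring

theorem plusBilin_nondeg (m : ℕ) (u : (Fin m ⊕ Fin m) → ZMod 2) (h : ∀ v, plusBilin m u v = 0) : u = 0 := by
  funext a
  rcases a with i | i
  · simpa [plusBilin, Pi.single_apply] using h (Pi.single (.inr i) 1)
  · simpa [plusBilin, Pi.single_apply] using h (Pi.single (.inl i) 1)

theorem finrank_plus (m : ℕ) : finrank (ZMod 2) ((Fin m ⊕ Fin m) → ZMod 2) = 2 * m := by
  simp [two_mul]

theorem charSum_plus (m : ℕ) : charSum (Cfsg.quadFormPlus m (ZMod 2)) = 2 ^ m := by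
  let U : Submodule (ZMod 2) ((Fin m ⊕ Fin m) → ZMod 2) :=
    LinearMap.ker (LinearMap.pi fun i : Fin m => (LinearMap.proj (Sum.inr i) : ((Fin m ⊕ Fin m) → ZMod 2) →ₗ[ZMod 2] ZMod 2))
  have hmem : ∀ u, u ∈ U ↔ ∀ i, u (.inr i) = 0 := fun u => by simp [U, LinearMap.mem_ker, funext_iff]
  rw [charSum_eq_of_lagrangian (quadFormPlus_add m) U]
  · let e : U ≃ (Fin m → ZMod 2) :=
      { toFun := fun u i => u.1 (.inl i)
        invFun := fun f => ⟨Sum.elim f 0, (hmem _).mpr fun i => rfl⟩
        left_inv := fun u => Subtype.ext (funext fun a => by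
          rcases a with i | i
          · rfl
          · exact ((hmem _).mp u.2 i).symm)
        right_inv := fun f => rfl }
    rw [Nat.card_congr e]; simp
  · intro u hu
    simp [Cfsg.quadFormPlus, (hmem u).mp hu]
  · intro v hv
    rw [hmem]
    intro i
    have h := hv (Pi.single (.inl i) 1) ((hmem _).mpr fun j => by simp)
    simpa [plusBilin, Pi.single_apply] using h

/-- The index type of the minus form, identified with that of the plus form. -/
def minusEquiv (m : ℕ) : ((Fin m ⊕ Fin m) ⊕ Fin 2) ≃ (Fin (m + 1) ⊕ Fin (m + 1)) where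
  toFun := Sum.elim (Sum.map Fin.castSucc Fin.castSucc) ![.inl (Fin.last m), .inr (Fin.last m)]
  invFun := Sum.elim (Fin.lastCases (.inr 0) fun i => .inl (.inl i)) (Fin.lastCases (.inr 1) fun i => .inl (.inr i))
  left_inv := by rintro ((i | i) | i) <;> [simp; simp; (fin_cases i <;> simp)]
  right_inv := by
    rintro (i | i) <;> refine Fin.lastCases ?_ (fun j => ?_) i <;> simp

/-- A vector of non-zero value for the plus form, whose translate is the minus form. -/
def w₀ (m : ℕ) : (Fin (m + 1) ⊕ Fin (m + 1)) → ZMod 2 :=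
  Sum.elim (Pi.single (Fin.last m) 1) (Pi.single (Fin.last m) 1)

theorem plus_w₀ (m : ℕ) : Cfsg.quadFormPlus (m + 1) (ZMod 2) (w₀ m) = 1 := by
  simp [Cfsg.quadFormPlus, w₀, Pi.single_apply]

theorem translate_w₀ (m : ℕ) (v : (Fin (m + 1) ⊕ Fin (m + 1)) → ZMod 2) :
    Cfsg.quadFormPlus (m + 1) (ZMod 2) v + plusBilin (m + 1) v (w₀ m) =
      Cfsg.quadFormMinus m (ZMod 2) 1 1 (LinearEquiv.funCongrLeft (ZMod 2) (ZMod 2) (minusEquiv m) v) := by
  simp only [Cfsg.quadFormPlus, Cfsg.quadFormMinus, plusBilin, LinearMap.mk₂_apply, Fin.sum_univ_castSucc,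
    LinearEquiv.funCongrLeft_apply, LinearMap.funLeft_apply, minusEquiv, Equiv.coe_fn_mk, Sum.elim_inl, Sum.elim_inr,
    Sum.map_inl, Sum.map_inr, Matrix.cons_val_zero, Matrix.cons_val_one, one_mul, w₀]
  simp [Fin.castSucc_ne_last]
  ring

theorem charSum_minus (m : ℕ) : charSum (Cfsg.quadFormMinus m (ZMod 2) 1 1) = -2 ^ (m + 1) := by
  rw [← charSum_congr (q := fun v => Cfsg.quadFormPlus (m + 1) (ZMod 2) v + plusBilin (m + 1) v (w₀ m))
    (LinearEquiv.funCongrLeft (ZMod 2) (ZMod 2) (minusEquiv m)) (translate_w₀ m),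
    charSum_translate (quadFormPlus_add _), plus_w₀, charSum_plus]
  show (-1 : ℤ) * _ = _
  ring

/-- Classification of the forms with the polar of the plus form. -/
theorem exists_equiv_of_polar (m : ℕ) {q : ((Fin (m + 1) ⊕ Fin (m + 1)) → ZMod 2) → ZMod 2}
    (hq : ∀ u v, q (u + v) = q u + q v + plusBilin (m + 1) u v) :
    (charSum q = 2 ^ (m + 1) ∧ ∃ g : ((Fin (m + 1) ⊕ Fin (m + 1)) → ZMod 2) ≃ₗ[ZMod 2] ((Fin (m + 1) ⊕ Fin (m + 1)) → ZMod 2),
      ∀ v, q v = Cfsg.quadFormPlus (m + 1) (ZMod 2) (g v)) ∨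
    (charSum q = -2 ^ (m + 1) ∧ ∃ g : ((Fin (m + 1) ⊕ Fin (m + 1)) → ZMod 2) ≃ₗ[ZMod 2] ((Fin m ⊕ Fin m) ⊕ Fin 2 → ZMod 2),
      ∀ v, q v = Cfsg.quadFormMinus m (ZMod 2) 1 1 (g v)) := by
  obtain ⟨w, rfl, -⟩ := exists_unique_translate (quadFormPlus_add (m + 1)) (plusBilin_nondeg _) hq
  rcases (show ∀ x : ZMod 2, x = 0 ∨ x = 1 by decide) (Cfsg.quadFormPlus (m + 1) (ZMod 2) w) with h | h
  · refine Or.inl ⟨?_, exists_equiv_translate (quadFormPlus_add _) h⟩
    rw [charSum_translate (quadFormPlus_add _), h, charSum_plus]; exact one_mul _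
  · refine Or.inr ⟨?_, ?_⟩
    · rw [charSum_translate (quadFormPlus_add _), h, charSum_plus]
      show (-1 : ℤ) * _ = _
      ring
    · set q₁ := fun v => Cfsg.quadFormPlus (m + 1) (ZMod 2) v + plusBilin (m + 1) v (w₀ m) with hq₁def
      have hq₁ : ∀ u v, q₁ (u + v) = q₁ u + q₁ v + plusBilin (m + 1) u v := fun u v => by
        simp only [hq₁def, quadFormPlus_add, map_add, LinearMap.add_apply]; ring
      have hd : q₁ (w₀ m + w) = 0 := by
        simp only [hq₁def, quadFormPlus_add, map_add, LinearMap.add_apply, plus_w₀, h,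
          polar_self (quadFormPlus_add (m + 1))]
        rw [polar_comm (quadFormPlus_add (m + 1)) (w₀ m) w]
        generalize plusBilin (m + 1) w (w₀ m) = x
        revert x; decide
      obtain ⟨g, hg⟩ := exists_equiv_translate hq₁ hd
      refine ⟨g.trans (LinearEquiv.funCongrLeft (ZMod 2) (ZMod 2) (minusEquiv m)), fun v => ?_⟩
      rw [LinearEquiv.trans_apply, ← translate_w₀]
      show _ = q₁ (g v)
      rw [← hg]
      simp only [hq₁def, map_add]
      linear_combination (-plusBilin (m + 1) v (w₀ m)) * two_eq_zero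

end CfsgLib.Generators.BinaryForms
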