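import Mathlib
import Cfsg.Agent.Lib.SL2.Dickson.Icosahedral
import Cfsg.Agent.Lib.SL2.Dickson.Index
import Cfsg.Agent.Lib.Parabolic.PSLFours.Projective

/-!
# The subgroups `A₅` of `PSL₂(11)`

Two representatives `HA`, `HB` of the classes, a double coset witness, and the classification by
finite checks on the coordinates of `SL₂(ZMod 11)`.
-/

set_option autoImplicit false

open scoped MatrixGroups

namespace CfsgLib.Generators.PSLEleven

open CfsgLib.SL2 CfsgLib.SL2.Dickson CfsgLib.SL2.Dickson.Icosahedral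

instance : Fact (Nat.Prime 11) := ⟨by norm_num⟩

/-- The field. -/
abbrev K : Type := ZMod 11
/-- The special linear group. -/
abbrev S : Type := Matrix.SpecialLinearGroup (Fin 2) K
/-- The projective group. -/
abbrev P : Type := Matrix.ProjectiveSpecialLinearGroup (Fin 2) K
/-- Coordinates. -/
abbrev Q : Type := K × K × K × K

/-- Product of coordinates. -/
def qmul : Q → Q → Q := fun (a, b, c, d) (e, f, g, h) =>
  (a * e + b * g, a * f + b * h, c * e + d * g, c * f + d * h)

/-- Inverse of coordinates. -/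
def qinv : Q → Q := fun (a, b, c, d) => (d, -b, -c, a)

/-- Cube. -/
def qcube (q : Q) : Q := qmul (qmul q q) q

/-- Fifth power. -/
def qfive (q : Q) : Q := qmul (qcube q) (qmul q q)

/-- Identity coordinates. -/
def qone : Q := (1, 0, 0, 1)

/-- Equality up to sign. -/
def sgnEq (x y : Q) : Bool := decide (x = y) || decide (x = -y)

/-- Coordinates of a matrix. -/
def toQ (g : S) : Q := (g 0 0, g 0 1, g 1 0, g 1 1)

/-- The involution. -/
def tS : S := ⟨!![0, -1; 1, 0], by decide⟩
/-- Generator of the first class. -/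
def uA : S := ⟨!![0, 2; 5, 1], by decide⟩
/-- A second generator inside the first subgroup. -/
def uA' : S := ⟨!![2, 3; 10, 10], by decide⟩
/-- Generator of the second class. -/
def uB : S := ⟨!![0, 3; 7, 1], by decide⟩
/-- A second generator inside the second subgroup. -/
def uB' : S := ⟨!![3, 10; 7, 9], by decide⟩

/-- Coordinates of `tS`. -/
def qt : Q := (0, -1, 1, 0)

/-- The lifts of the elements of the second subgroup. -/
def listB : List Q :=
  [(1, 0, 0, 1), (0, 10, 1, 0), (0, 3, 7, 1), (10, 0, 0, 10), (4, 10, 0, 3), (3, 0, 1, 4),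
   (10, 3, 7, 0), (0, 1, 10, 0), (0, 8, 4, 10), (10, 7, 3, 0), (4, 0, 10, 3), (0, 9, 6, 7),
   (3, 1, 0, 4), (7, 1, 0, 8), (8, 0, 10, 7), (1, 8, 4, 0), (5, 4, 0, 9), (0, 7, 3, 1),
   (9, 0, 7, 5), (8, 9, 5, 3), (7, 10, 6, 4), (1, 4, 8, 0), (7, 0, 1, 8), (0, 2, 5, 4),
   (8, 10, 0, 7), (4, 6, 9, 0), (6, 8, 8, 9), (5, 7, 7, 10), (0, 5, 2, 4), (9, 3, 3, 6),
   (10, 4, 4, 5), (4, 9, 6, 0), (6, 7, 0, 2), (0, 4, 8, 10), (2, 0, 4, 6), (3, 2, 6, 8),
   (4, 1, 5, 7), (9, 7, 0, 5), (8, 5, 9, 3), (7, 6, 10, 4), (5, 0, 4, 9), (2, 5, 6, 10),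
   (10, 8, 9, 4), (6, 1, 2, 6), (7, 5, 2, 0), (5, 3, 3, 2), (6, 4, 4, 1), (0, 6, 9, 7),
   (2, 8, 8, 5), (1, 7, 7, 6), (7, 2, 5, 0), (5, 1, 2, 5), (2, 7, 10, 8), (9, 5, 6, 1),
   (5, 9, 10, 5), (8, 1, 4, 2), (1, 5, 6, 9), (7, 8, 9, 1), (2, 4, 0, 6), (3, 6, 2, 8),
   (4, 5, 1, 7), (6, 0, 7, 2), (9, 6, 5, 1), (1, 3, 2, 7), (5, 10, 9, 5), (1, 6, 5, 9),
   (7, 9, 8, 1), (5, 2, 1, 5), (2, 10, 7, 8), (8, 2, 2, 2), (7, 3, 3, 3), (8, 4, 1, 2),
   (6, 10, 9, 6), (9, 4, 1, 3), (2, 6, 5, 10), (6, 2, 1, 6), (3, 10, 7, 9), (10, 6, 5, 2),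
   (4, 3, 2, 10), (9, 9, 8, 2), (8, 8, 7, 3), (10, 9, 8, 4), (2, 3, 2, 9), (3, 4, 3, 8),
   (10, 2, 10, 1), (6, 6, 3, 5), (10, 5, 6, 2), (4, 2, 3, 10), (6, 9, 10, 6), (9, 1, 4, 3),
   (3, 9, 9, 9), (4, 8, 8, 8), (3, 7, 10, 9), (9, 2, 2, 3), (8, 3, 3, 4), (1, 10, 10, 2),
   (8, 6, 6, 6), (2, 1, 1, 1), (6, 5, 5, 8), (2, 2, 3, 9), (3, 3, 4, 8), (1, 2, 3, 7),
   (9, 8, 9, 2), (8, 7, 8, 3), (1, 9, 1, 10), (5, 5, 8, 6), (10, 10, 2, 1), (6, 3, 6, 5),
   (7, 7, 7, 4), (2, 9, 9, 8), (3, 8, 8, 7), (10, 1, 1, 9), (3, 5, 5, 5), (9, 10, 10, 10),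
   (5, 6, 6, 3), (4, 7, 7, 7), (7, 4, 4, 4), (1, 1, 9, 10), (5, 8, 5, 6), (4, 4, 4, 7)]

/-- The centraliser of `proj tS`, in coordinates. -/
def centT : List Q :=
  ((List.range 11).flatMap fun a => (List.range 11).flatMap fun b =>
    [((a : K), (b : K), -(b : K), (a : K)), ((a : K), (b : K), (b : K), -(a : K))]).filter
    fun (a, b, c, d) => decide (a * d - b * c = 1)

/-- The test used in the classification. -/
def coverTest (q : Q) : Bool :=
  !(decide (q.1 * q.2.2.2 - q.2.1 * q.2.2.1 = 1)) || !(sgnEq (qcube q) qone) || sgnEq q qone ||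
    !(sgnEq (qfive (qmul qt q)) qone) ||
    centT.any (fun g => [((0 : K), (2 : K), (5 : K), (1 : K)), (2, 3, 10, 10), (0, 3, 7, 1), (3, 10, 7, 9)].any
      fun r => sgnEq (qmul g q) (qmul r g))

theorem cover_check : ∀ a b c d : K, coverTest (a, b, c, d) = true := by decide +kernel

set_option maxRecDepth 8000 in
theorem centT_check : ∀ g ∈ centT, qmul g qt = qmul qt g ∨ qmul g qt = -qmul qt g := by
  decide +kernel

theorem noswap_check : ∀ a b c d : K, a * d - b * c = 1 →
    sgnEq (qmul (a, b, c, d) qt) (qmul qt (a, b, c, d)) = true →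
    qmul (qmul (a, b, c, d) (0, 2, 5, 1)) (qinv (a, b, c, d)) ∉ listB := by decide +kernel

theorem listB_closed : ∀ x ∈ listB, qmul x qt ∈ listB ∧ qmul x (qinv qt) ∈ listB ∧
    qmul x (0, 3, 7, 1) ∈ listB ∧ qmul x (qinv (0, 3, 7, 1)) ∈ listB ∧ -x ∈ listB := by
  decide +kernel

theorem one_mem_listB : qone ∈ listB := by decide +kernel

theorem toQ_mul (g h : S) : toQ (g * h) = qmul (toQ g) (toQ h) := by
  simp [toQ, qmul, Matrix.SpecialLinearGroup.coe_mul, Matrix.mul_apply, Fin.sum_univ_two]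

theorem toQ_neg (g : S) : toQ (-g) = -toQ g := rfl

theorem toQ_inv (g : S) : toQ g⁻¹ = qinv (toQ g) := by
  simp [toQ, qinv, Matrix.SpecialLinearGroup.coe_inv, Matrix.adjugate_fin_two]

theorem toQ_one : toQ 1 = qone := rfl

theorem toQ_injective : Function.Injective toQ := by
  intro g h e
  simp only [toQ, Prod.mk.injEq] at e
  ext i j
  fin_cases i <;> fin_cases j <;> simp [e.1, e.2.1, e.2.2.1, e.2.2.2]

theorem det_toQ (g : S) : (toQ g).1 * (toQ g).2.2.2 - (toQ g).2.1 * (toQ g).2.2.1 = 1 :=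
  det_eq g

theorem exists_toQ {q : Q} (h : q.1 * q.2.2.2 - q.2.1 * q.2.2.1 = 1) : ∃ g : S, toQ g = q :=
  ⟨⟨!![q.1, q.2.1; q.2.2.1, q.2.2.2], by rw [Matrix.det_fin_two_of]; exact h⟩, rfl⟩

theorem proj_neg (g : S) : proj (-g) = proj g := CfsgLib.PSLFours.pr_neg g

theorem two_ne : (2 : K) ≠ 0 := by decide

theorem proj_eq_iff {g h : S} : proj g = proj h ↔ sgnEq (toQ g) (toQ h) = true := by
  rw [sgnEq, Bool.or_eq_true, decide_eq_true_iff, decide_eq_true_iff, ← toQ_neg,
    toQ_injective.eq_iff, toQ_injective.eq_iff]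
  refine ⟨fun e => ?_, fun e => e.elim (congrArg _) fun e => by rw [e, proj_neg]⟩
  rcases CfsgLib.PSLFours.pr_eq_pr.1 e with e' | e'
  · exact Or.inl e'.symm
  · exact Or.inr (by rw [e', neg_neg])

/-- A strengthening of `exists_hom`: the values at both generators. -/
theorem exists_hom_two {c : K} {x y : S} (hc : c ^ 2 = c + 1) (hx : tr x = 0) (hy : tr y = 1)
    (hxy : tr (x * y) = c) :
    ∃ f : alternatingGroup (Fin 5) →* P, Function.Injective f ∧
      f ⟨s₅, s₅_mem⟩ = proj x ∧ f.range = Subgroup.closure {proj x, proj y} := by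
  let F₀ : Equiv.Perm (Fin 5) → P := fun g => proj (evalSL x y (word g))
  have hstepS : ∀ k ∈ alternatingGroup (Fin 5), F₀ (k * s₅) = F₀ k * proj x := by
    intro k hk
    show proj _ = proj _ * proj x
    rw [← map_mul, proj_evalSL_eq hc hx hy hxy (w := word k ++ [true])
      (by simpa [evalQuad, List.foldl_append] using step_s₅ ⟨k, hk⟩)]
    simp [evalSL, List.foldl_append]
  have hstepT : ∀ k ∈ alternatingGroup (Fin 5), F₀ (k * t₅) = F₀ k * proj y := by
    intro k hk
    show proj _ = proj _ * proj y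
    rw [← map_mul, proj_evalSL_eq hc hx hy hxy (w := word k ++ [false])
      (by simpa [evalQuad, List.foldl_append] using step_t₅ ⟨k, hk⟩)]
    simp [evalSL, List.foldl_append]
  have hgen : ∀ g ∈ alternatingGroup (Fin 5), ∀ w : List Bool,
      g * evalPerm w ∈ alternatingGroup (Fin 5) ∧
        F₀ (g * evalPerm w) = F₀ g * proj (evalSL x y w) := by
    intro g hg w
    induction w using List.reverseRecOn with
    | nil => simp [evalPerm, evalSL, hg]
    | append_singleton w b ih =>
      obtain ⟨hm, he⟩ := ih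
      simp only [evalPerm, evalSL] at hm he
      simp only [evalPerm, evalSL, List.foldl_append, List.foldl_cons, List.foldl_nil]
      cases b
      · simp only [Bool.false_eq_true, if_false, map_mul, ← mul_assoc]
        exact ⟨mul_mem hm t₅_mem, by rw [hstepT _ hm, he]⟩
      · simp only [if_true, map_mul, ← mul_assoc]
        exact ⟨mul_mem hm s₅_mem, by rw [hstepS _ hm, he]⟩
  let f : alternatingGroup (Fin 5) →* P := MonoidHom.mk' (fun g => F₀ g.1) fun g k => by
    have h := (hgen g.1 g.2 (word k.1)).2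
    rw [evalPerm_word k] at h
    exact h
  have hfs : f ⟨s₅, s₅_mem⟩ = proj x := by
    show proj (evalSL x y (word s₅)) = proj x
    rw [word_s₅]; simp [evalSL]
  have hft : f ⟨t₅, t₅_mem⟩ = proj y := by
    show proj (evalSL x y (word t₅)) = proj y
    rw [show word t₅ = [false] by decide +kernel]; simp [evalSL]
  refine ⟨f, (MonoidHom.ker_eq_bot_iff f).1
    (((inferInstance : f.ker.Normal).eq_bot_or_eq_top).resolve_right fun h => ?_), hfs, le_antisymm ?_ ?_⟩
  · have h1 : f ⟨s₅, s₅_mem⟩ = 1 := MonoidHom.mem_ker.1 (h ▸ Subgroup.mem_top _)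
    rw [hfs] at h1
    obtain ⟨e1, e2, e3⟩ := (mem_center_iff_isScalarMat x).1 ((QuotientGroup.eq_one_iff x).1 h1)
    have hd := det_eq x
    rw [tr, ← e3] at hx
    have h0 : x 0 0 = 0 := by
      rcases mul_eq_zero.1 (show (2 : K) * x 0 0 = 0 by linear_combination hx) with h | h
      · exact absurd h two_ne
      · exact h
    rw [e1, e2, ← e3, h0] at hd
    simp at hd
  · rintro _ ⟨g, rfl⟩
    show proj (evalSL x y (word g.1)) ∈ _
    generalize word g.1 = w
    induction w using List.reverseRecOn with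
    | nil => simp [evalSL]
    | append_singleton w b ih =>
      simp only [evalSL, List.foldl_append, List.foldl_cons, List.foldl_nil] at ih ⊢
      cases b <;> simp only [if_true, Bool.false_eq_true, if_false, map_mul] <;>
        exact mul_mem ih (Subgroup.subset_closure (by simp))
  · rw [Subgroup.closure_le]
    rintro z (rfl | rfl)
    · exact ⟨_, hfs⟩
    · exact ⟨_, hft⟩

/-- The subgroup generated by the images of `tS` and `u`. -/
def H (u : S) : Subgroup P := Subgroup.closure {proj tS, proj u}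

/-- The admissible second generators. -/
def IsGen (u : S) : Prop := tr u = 1 ∧ (tr (tS * u) ^ 2 = tr (tS * u) + 1 ∨
  tr (tS * u) ^ 2 = -tr (tS * u) + 1)

theorem isGen_all : IsGen uA ∧ IsGen uA' ∧ IsGen uB ∧ IsGen uB' := by
  refine ⟨⟨?_, ?_⟩, ⟨?_, ?_⟩, ⟨?_, ?_⟩, ⟨?_, ?_⟩⟩ <;>
    simp [IsGen, tr, tS, uA, uA', uB, uB', Matrix.SpecialLinearGroup.coe_mul, Matrix.mul_apply, Fin.sum_univ_two] <;>
    decide

theorem exists_hom_H {u : S} (hu : IsGen u) :
    ∃ f : alternatingGroup (Fin 5) →* P, Function.Injective f ∧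
      f ⟨s₅, s₅_mem⟩ = proj tS ∧ f.range = H u := by
  obtain ⟨h1, h2 | h2⟩ := hu
  · exact exists_hom_two (x := tS) h2 (by simp [tr, tS]) h1 rfl
  · obtain ⟨f, hf, hs, hr⟩ := exists_hom_two (c := -tr (tS * u)) (x := -tS) (y := u)
      (by rw [neg_sq]; exact h2) (by decide +kernel) h1 (by simp [tr, neg_mul]; ring)
    rw [proj_neg] at hs hr
    exact ⟨f, hf, hs, hr⟩

theorem equiv_H {u : S} (hu : IsGen u) : Nonempty (H u ≃* alternatingGroup (Fin 5)) := by
  obtain ⟨f, hf, -, hr⟩ := exists_hom_H hu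
  exact ⟨((MonoidHom.ofInjective hf).trans (MulEquiv.subgroupCongr hr)).symm⟩

theorem card_alt_five : Nat.card (alternatingGroup (Fin 5)) = 60 := by
  rw [Nat.card_eq_fintype_card]; decide +kernel

theorem card_of_equiv {L : Subgroup P} (e : L ≃* alternatingGroup (Fin 5)) : Nat.card L = 60 :=
  (Nat.card_congr e.toEquiv).trans card_alt_five

theorem card_H {u : S} (hu : IsGen u) : Nat.card (H u) = 60 := card_of_equiv (equiv_H hu).some

theorem card_P : Nat.card P = 660 := by
  have h := CfsgLib.SL2.Dickson.card_PSL_mul (F := K)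
  rw [center_card_of_odd two_ne, Nat.card_zmod] at h
  show Nat.card (Matrix.ProjectiveSpecialLinearGroup (Fin 2) K) = 660
  omega

theorem index_of_equiv {L : Subgroup P} (e : L ≃* alternatingGroup (Fin 5)) : L.index = 11 := by
  have h := L.card_mul_index
  rw [card_of_equiv e, card_P] at h
  omega

/-- The value of a word. -/
def wd (u : S) (w : List Bool) : S := w.foldl (fun q b => if b then q * tS else q * u) 1

theorem wd_mem (u : S) (w : List Bool) : proj (wd u w) ∈ H u := by
  induction w using List.reverseRecOn with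
  | nil => simp [wd]
  | append_singleton w b ih =>
    simp only [wd, List.foldl_append, List.foldl_cons, List.foldl_nil] at ih ⊢
    cases b <;> simp only [if_true, Bool.false_eq_true, if_false, map_mul] <;>
      exact mul_mem ih (Subgroup.subset_closure (by simp))

/-- The value of a word, in coordinates. -/
def qwd (u : Q) (w : List Bool) : Q := w.foldl (fun q b => if b then qmul q qt else qmul q u) qone

theorem toQ_wd (u : S) (w : List Bool) : toQ (wd u w) = qwd (toQ u) w := by
  induction w using List.reverseRecOn with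
  | nil => rfl
  | append_singleton w b ih =>
    simp only [wd, qwd, List.foldl_append, List.foldl_cons, List.foldl_nil] at ih ⊢
    cases b <;> simp only [if_true, Bool.false_eq_true, if_false, toQ_mul, ih] <;> rfl

theorem eq_H_of_mem {u u' : S} (hu : IsGen u) (hu' : IsGen u') (h : proj u' ∈ H u) : H u' = H u := by
  refine Subgroup.eq_of_le_of_card_ge ?_ (by rw [card_H hu, card_H hu'])
  unfold H at h ⊢
  rw [Subgroup.closure_le]
  rintro z (rfl | rfl)
  · exact Subgroup.subset_closure (by simp)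
  · exact h

theorem H_uA' : H uA' = H uA := by
  refine eq_H_of_mem isGen_all.1 isGen_all.2.1 ?_
  rw [show proj uA' = proj (wd uA [true, false, true, false, false, true, false]) by
    rw [proj_eq_iff, toQ_wd]; decide +kernel]
  exact wd_mem _ _

theorem H_uB' : H uB' = H uB := by
  refine eq_H_of_mem isGen_all.2.2.1 isGen_all.2.2.2 ?_
  rw [show proj uB' = proj (wd uB [true, true, false, true, false, false, true, false, true]) by
    rw [proj_eq_iff, toQ_wd]; decide +kernel]
  exact wd_mem _ _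

/-- The standard unipotent element. -/
def up (j : K) : S := ⟨!![1, j; 0, 1], by simp [Matrix.det_fin_two_of]⟩

theorem up_mul (i j : K) : up i * up j = up (i + j) :=
  toQ_injective (by rw [toQ_mul]; simp [toQ, up, qmul, add_comm])

/-- Words giving the double coset decomposition. -/
def dcTable : List (K × List Bool × List Bool) :=
  [(1, [], []),
   (2, [true], [true, true, true, false, true, false, false, true, false]),
   (3, [true, false], [true, false]),
   (4, [false, false, true], [false, false, true]),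
   (5, [true, false, false, true], [true, true, false, true, false, false, true, false]),
   (6, [false, true, false], [true, false, false, true, false, true, false]),
   (7, [false, false, true, false], [false, true, false, true]),
   (8, [false, false], [true, false, false, true, false]),
   (9, [true, false, true, false], [true, false, true, false]),
   (10, [false], [true, false, false, true, false, true])]

theorem dc_check : ∀ j : K, j = 0 ∨ ∃ e ∈ dcTable, e.1 = j ∧
    sgnEq (qmul (qwd (0, 2, 5, 1) e.2.1) (1, 1, 0, 1)) (qmul (1, j, 0, 1) (qwd (0, 2, 5, 1) e.2.2)) = true := by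
  decide +kernel

theorem doubleCoset : ∀ g : P, g ∉ H uA → ∃ h ∈ H uA, ∃ k ∈ H uA, g = h * proj (up 1) * k := by
  let ψ : K → P ⧸ H uA := fun j => (proj (up j) : P)
  have hψ : Function.Bijective ψ := by
    have hinj : Function.Injective ψ := by
      intro i j h
      by_contra hne
      have hd : j - i ≠ 0 := sub_ne_zero.2 (Ne.symm hne)
      have hm : proj (up (j - i)) ∈ H uA := by
        have h' := QuotientGroup.eq.1 h
        rwa [← map_inv, ← map_mul, show (up i)⁻¹ * up j = up (j - i) by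
          rw [inv_mul_eq_iff_eq_mul, up_mul]; congr 1; ring] at h'
      have hpow : ∀ n : ℕ, up (j - i) ^ n = up ((n : K) * (j - i)) := by
        intro n
        induction n with
        | zero => rw [pow_zero]; exact toQ_injective (by simp [toQ, up])
        | succ n ih => rw [pow_succ, ih, up_mul]; congr 1; push_cast; ring
      have h11 : proj (up (j - i)) ^ 11 = 1 := by
        rw [← map_pow, hpow, show ((11 : ℕ) : K) = 0 from ZMod.natCast_self 11, zero_mul,
          show up 0 = 1 from toQ_injective (by simp [toQ, up]), map_one]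
      have h60 : (⟨_, hm⟩ : H uA) ^ 60 = 1 := by
        rw [← card_H isGen_all.1]; exact pow_card_eq_one'
      have h60' : proj (up (j - i)) ^ 60 = 1 := congrArg Subtype.val h60
      have h1 : proj (up (j - i)) = 1 := by
        have := pow_gcd_eq_one.2 ⟨h11, h60'⟩
        simpa [show Nat.gcd 11 60 = 1 by norm_num] using this
      rcases CfsgLib.PSLFours.pr_eq_one.1 h1 with e | e
      · exact hd (by simpa [toQ, up] using congrArg (fun g => (toQ g).2.1) e)
      · exact hd (by simpa [toQ, up] using congrArg (fun g => (toQ g).2.1) e)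
    exact (Nat.bijective_iff_injective_and_card ψ).2 ⟨hinj, by
      rw [Nat.card_zmod, ← Subgroup.index_eq_card, index_of_equiv (equiv_H isGen_all.1).some]⟩
  intro g hg
  obtain ⟨j, hj⟩ := hψ.2 (g : P ⧸ H uA)
  have hk : (proj (up j))⁻¹ * g ∈ H uA := QuotientGroup.eq.1 hj
  rcases dc_check j with rfl | ⟨⟨j', wh, wk⟩, -, rfl, he⟩
  · rw [show up 0 = 1 from toQ_injective (by simp [toQ, up]), map_one, inv_one, one_mul] at hk
    exact absurd hk hg
  · have e : proj (wd uA wh) * proj (up 1) = proj (up j') * proj (wd uA wk) := by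
      rw [← map_mul, ← map_mul, proj_eq_iff, toQ_mul, toQ_mul, toQ_wd, toQ_wd]
      exact he
    refine ⟨proj (wd uA wh), wd_mem _ _, (proj (wd uA wk))⁻¹ * ((proj (up j'))⁻¹ * g),
      mul_mem (inv_mem (wd_mem _ _)) hk, ?_⟩
    rw [e]; group

theorem conj_involution {a : P} (ha : a * a = 1) (ha1 : a ≠ 1) :
    ∃ g : P, g * a * g⁻¹ = proj tS := by
  obtain ⟨s, rfl⟩ := CfsgLib.SL2.Dickson.proj_surjective (F := K) a
  have hs := CfsgLib.PSLFours.sq_of_pr_involution two_ne ha ha1
  have htr : tr s = 0 := CfsgLib.PSLFours.tr_eq_zero_of_sq hs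
  obtain ⟨g, hg⟩ := isConj_iff.1 (isConj_of_tr_eq (g := s) (h := tS)
    (by rw [htr]; decide) (by rw [htr]; simp [tr, tS]))
  exact ⟨proj g, by rw [← map_inv, ← map_mul, ← map_mul, hg]⟩

theorem exists_generators {L : Subgroup P} (e : L ≃* alternatingGroup (Fin 5)) :
    ∃ a ∈ L, ∃ b ∈ L, a * a = 1 ∧ a ≠ 1 ∧ b ^ 3 = 1 ∧ b ≠ 1 ∧ (a * b) ^ 5 = 1 := by
  have hs : (⟨s₅, s₅_mem⟩ : alternatingGroup (Fin 5)) * ⟨s₅, s₅_mem⟩ = 1 ∧
      (⟨s₅, s₅_mem⟩ : alternatingGroup (Fin 5)) ≠ 1 ∧
      (⟨t₅, t₅_mem⟩ : alternatingGroup (Fin 5)) ^ 3 = 1 ∧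
      (⟨t₅, t₅_mem⟩ : alternatingGroup (Fin 5)) ≠ 1 ∧
      ((⟨s₅, s₅_mem⟩ : alternatingGroup (Fin 5)) * ⟨t₅, t₅_mem⟩) ^ 5 = 1 := by decide +kernel
  obtain ⟨h1, h2, h3, h4, h5⟩ := hs
  refine ⟨_, (e.symm ⟨s₅, s₅_mem⟩).2, _, (e.symm ⟨t₅, t₅_mem⟩).2, ?_, ?_, ?_, ?_, ?_⟩
  · rw [← Subgroup.coe_mul, ← map_mul, h1, map_one, Subgroup.coe_one]
  · exact fun h => h2 (e.symm.injective ((Subtype.ext h).trans (map_one _).symm))
  · rw [← Subgroup.coe_pow, ← map_pow, h3, map_one, Subgroup.coe_one]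
  · exact fun h => h4 (e.symm.injective ((Subtype.ext h).trans (map_one _).symm))
  · rw [← Subgroup.coe_mul, ← map_mul, ← Subgroup.coe_pow, ← map_pow, h5, map_one, Subgroup.coe_one]

/-- Every subgroup isomorphic to `A₅` is conjugate to `H uA` or to `H uB`. -/
theorem classify {L : Subgroup P} (e : L ≃* alternatingGroup (Fin 5)) :
    ∃ g : P, L.map (MulAut.conj g).toMonoidHom = H uA ∨ L.map (MulAut.conj g).toMonoidHom = H uB := by
  obtain ⟨a, haL, b, hbL, ha, ha1, hb, hb1, hab⟩ := exists_generators e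
  obtain ⟨g, hg⟩ := conj_involution ha ha1
  obtain ⟨s, hs⟩ := CfsgLib.SL2.Dickson.proj_surjective (F := K) (g * b * g⁻¹)
  have h3 : proj (s * s * s) = proj 1 := by
    rw [map_mul, map_mul, hs, map_one]
    calc _ = g * b ^ 3 * g⁻¹ := by simp only [pow_succ, pow_zero, one_mul]; group
      _ = 1 := by rw [hb]; group
  have c3 : sgnEq (qcube (toQ s)) qone = true := by
    rw [proj_eq_iff, toQ_mul, toQ_mul] at h3; exact h3
  have c1 : sgnEq (toQ s) qone = false := by
    rw [Bool.eq_false_iff]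
    intro h
    rw [← toQ_one, ← proj_eq_iff, hs, map_one] at h
    exact hb1 (by
      have := congrArg (fun x => g⁻¹ * x * g) h
      simpa [mul_assoc] using this)
  have c5 : sgnEq (qfive (qmul qt (toQ s))) qone = true := by
    have h5 : proj ((tS * s) * (tS * s) * (tS * s) * ((tS * s) * (tS * s))) = proj 1 := by
      simp only [map_mul, map_one]
      rw [hs, ← hg, show g * a * g⁻¹ * (g * b * g⁻¹) = g * (a * b) * g⁻¹ by group]
      calc _ = g * (a * b) ^ 5 * g⁻¹ := by simp only [pow_succ, pow_zero, one_mul]; group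
        _ = 1 := by rw [hab]; group
    rw [proj_eq_iff] at h5
    simp only [toQ_mul] at h5
    exact h5
  have hc := cover_check (toQ s).1 (toQ s).2.1 (toQ s).2.2.1 (toQ s).2.2.2
  have hd : decide ((toQ s).1 * (toQ s).2.2.2 - (toQ s).2.1 * (toQ s).2.2.1 = 1) = true :=
    decide_eq_true (det_toQ s)
  simp only [coverTest, Prod.eta, hd, c3, c1, c5, Bool.not_true, Bool.false_or, List.any_eq_true] at hc
  obtain ⟨q, hq, r, hr, hqr⟩ := hc
  obtain ⟨d, rfl⟩ := exists_toQ (q := q) (by
    have := List.mem_filter.1 hq; simpa using this.2)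
  have hdt : proj d * proj tS * (proj d)⁻¹ = proj tS := by
    rw [mul_inv_eq_iff_eq_mul, ← map_mul, ← map_mul, proj_eq_iff, toQ_mul, toQ_mul, sgnEq,
      Bool.or_eq_true, decide_eq_true_iff, decide_eq_true_iff]
    exact centT_check _ hq
  have key : ∀ u : S, IsGen u → toQ u = r → L.map (MulAut.conj (proj d * g)).toMonoidHom = H u := by
    intro u hu hur
    refine (Subgroup.eq_of_le_of_card_ge ?_ (le_of_eq ?_)).symm
    · rw [H, Subgroup.closure_le]
      rintro z (rfl | rfl)
      · refine ⟨a, haL, ?_⟩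
        show proj d * g * a * (proj d * g)⁻¹ = proj tS
        rw [show proj d * g * a * (proj d * g)⁻¹ = proj d * (g * a * g⁻¹) * (proj d)⁻¹ by group, hg, hdt]
      · refine ⟨b, hbL, ?_⟩
        show proj d * g * b * (proj d * g)⁻¹ = proj u
        rw [show proj d * g * b * (proj d * g)⁻¹ = proj d * (g * b * g⁻¹) * (proj d)⁻¹ by group, ← hs,
          mul_inv_eq_iff_eq_mul, ← map_mul, ← map_mul, proj_eq_iff, toQ_mul, toQ_mul, hur]
        exact hqr
    · rw [card_H hu, Subgroup.card_map_of_injective (MulAut.conj _).injective, card_of_equiv e]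
  simp only [List.mem_cons, List.not_mem_nil, or_false] at hr
  rcases hr with rfl | rfl | rfl | rfl
  · exact ⟨_, Or.inl (key uA isGen_all.1 rfl)⟩
  · exact ⟨_, Or.inl ((key uA' isGen_all.2.1 rfl).trans H_uA')⟩
  · exact ⟨_, Or.inr (key uB isGen_all.2.2.1 rfl)⟩
  · exact ⟨_, Or.inr ((key uB' isGen_all.2.2.2 rfl).trans H_uB')⟩

theorem involutions_conj : ∀ x : alternatingGroup (Fin 5), x * x = 1 → x ≠ 1 →
    ∃ y : alternatingGroup (Fin 5), y * ⟨s₅, s₅_mem⟩ * y⁻¹ = x := by decide +kernel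

theorem mem_HB {x : P} (hx : x ∈ H uB) : ∃ s : S, proj s = x ∧ toQ s ∈ listB := by
  induction hx using Subgroup.closure_induction_right with
  | one => exact ⟨1, map_one _, one_mem_listB⟩
  | mul_right x hx y hy ih =>
    obtain ⟨s, rfl, hs⟩ := ih
    rcases hy with rfl | rfl
    · exact ⟨s * tS, map_mul _ _ _, by rw [toQ_mul]; exact (listB_closed _ hs).1⟩
    · exact ⟨s * uB, map_mul _ _ _, by rw [toQ_mul]; exact (listB_closed _ hs).2.2.1⟩
  | mul_inv_cancel x hx y hy ih =>
    obtain ⟨s, rfl, hs⟩ := ih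
    rcases hy with rfl | rfl
    · exact ⟨s * tS⁻¹, by rw [map_mul, map_inv], by rw [toQ_mul, toQ_inv]; exact (listB_closed _ hs).2.1⟩
    · exact ⟨s * uB⁻¹, by rw [map_mul, map_inv], by rw [toQ_mul, toQ_inv]; exact (listB_closed _ hs).2.2.2.1⟩

/-- The two classes differ. -/
theorem not_conj (g : P) : (H uA).map (MulAut.conj g).toMonoidHom ≠ H uB := by
  intro h
  obtain ⟨f, hf, hfs, hr⟩ := exists_hom_H isGen_all.1
  have ha : g⁻¹ * proj tS * g ∈ H uA := by
    have : proj tS ∈ (H uA).map (MulAut.conj g).toMonoidHom := by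
      rw [h]; exact Subgroup.subset_closure (by simp)
    obtain ⟨z, hz, e⟩ := this
    rw [← e]
    simpa [mul_assoc] using hz
  obtain ⟨x, hx⟩ := (hr ▸ ha : g⁻¹ * proj tS * g ∈ f.range)
  have ht2 : proj tS * proj tS = 1 := by
    rw [← map_mul, ← map_one proj, proj_eq_iff]; decide +kernel
  have ht1 : proj tS ≠ 1 := by
    rw [← map_one proj, Ne, proj_eq_iff]; decide +kernel
  obtain ⟨y, hy⟩ := involutions_conj x
    (hf (by rw [map_mul, map_one, hx]; calc _ = g⁻¹ * (proj tS * proj tS) * g := by group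
        _ = 1 := by rw [ht2]; group))
    (fun e => ht1 (by
      rw [e, map_one] at hx
      have := congrArg (fun z => g * z * g⁻¹) hx
      simpa [mul_assoc] using this.symm))
  set k := g * f y with hk
  have hkt : k * proj tS = proj tS * k := by
    have e1 : f y * proj tS * (f y)⁻¹ = g⁻¹ * proj tS * g := by rw [← hfs, ← map_inv, ← map_mul, ← map_mul, hy, hx, hfs]
    rw [hk, show g * f y * proj tS = g * (f y * proj tS * (f y)⁻¹) * f y by group, e1]; group
  have hku : k * proj uA * k⁻¹ ∈ H uB := by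
    rw [← h]
    refine ⟨f y * proj uA * (f y)⁻¹, ?_, ?_⟩
    · have hy' : f y ∈ H uA := hr ▸ ⟨y, rfl⟩
      exact mul_mem (mul_mem hy' (Subgroup.subset_closure (by simp))) (inv_mem hy')
    · show g * (f y * proj uA * (f y)⁻¹) * g⁻¹ = _
      rw [hk]; group
  obtain ⟨c, hc⟩ := CfsgLib.SL2.Dickson.proj_surjective (F := K) k
  obtain ⟨s, hs, hsB⟩ := mem_HB hku
  rw [← hc, ← map_inv, ← map_mul, ← map_mul, proj_eq_iff, sgnEq, Bool.or_eq_true,
    decide_eq_true_iff, decide_eq_true_iff, toQ_mul, toQ_mul, toQ_inv] at hs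
  rw [← hc, ← map_mul, ← map_mul, proj_eq_iff, toQ_mul, toQ_mul] at hkt
  have := noswap_check _ _ _ _ (det_toQ c) hkt
  refine this ?_
  rcases hs with e | e
  · exact e ▸ hsB
  · have := (listB_closed _ hsB).2.2.2.2
    rw [e, neg_neg] at this
    exact this

end CfsgLib.Generators.PSLEleven
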