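import Mathlib

/-! Invariant subspaces of a nilpotent endomorphism with one-dimensional kernel (regular nilpotent). -/

namespace CfsgLib.Generators

open Module

variable {K : Type*} [Field K] {V : Type*} [AddCommGroup V] [Module K V] [FiniteDimensional K V]

/-- If the kernel of `f` has dimension at most one then the kernel of `f ^ j` has dimension at most `j`. -/
theorem finrank_ker_pow_le (f : Module.End K V) (h1 : finrank K (LinearMap.ker f) ≤ 1) (j : ℕ) :
    finrank K (LinearMap.ker (f ^ j)) ≤ j := by
  induction j with
  | zero => simp [pow_zero, Module.End.one_eq_id]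
  | succ j ih =>
    set W := LinearMap.ker (f ^ (j + 1))
    have h := LinearMap.finrank_range_add_finrank_ker ((f ^ j).comp W.subtype)
    have hr : finrank K (LinearMap.range ((f ^ j).comp W.subtype)) ≤ 1 := by
      refine le_trans (Submodule.finrank_mono ?_) h1
      rintro _ ⟨w, rfl⟩
      have hw := LinearMap.mem_ker.mp w.2
      rw [pow_succ'] at hw
      exact LinearMap.mem_ker.mpr hw
    have hk : finrank K (LinearMap.ker ((f ^ j).comp W.subtype)) ≤ j := by
      rw [LinearMap.ker_comp, ← Submodule.finrank_map_subtype_eq]
      exact le_trans (Submodule.finrank_mono (by rw [Submodule.map_comap_subtype]; exact inf_le_right)) ih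
    omega

/-- An invariant subspace of a nilpotent endomorphism is killed by the power of its dimension. -/
theorem le_ker_pow_finrank (f : Module.End K V) (hf : IsNilpotent f) (W : Submodule K V)
    (hW : ∀ v ∈ W, f v ∈ W) : W ≤ LinearMap.ker (f ^ finrank K W) := by
  obtain ⟨N, hN⟩ := hf
  set g : Module.End K W := f.restrict hW
  have hgN : IsNilpotent g := ⟨N, by
    ext w
    simp [g, Module.End.pow_restrict, hN]⟩
  have h0 : g ^ finrank K W = 0 := by
    have h := LinearMap.aeval_self_charpoly g
    rw [IsNilpotent.charpoly_eq_X_pow_finrank hgN, map_pow, Polynomial.aeval_X] at h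
    exact h
  intro v hv
  have hco : ∀ (k : ℕ) (w : W), (((g ^ k) w : W) : V) = (f ^ k) w := by
    intro k
    induction k with
    | zero => simp
    | succ k ih => intro w; rw [pow_succ, pow_succ, Module.End.mul_apply, ih]; rfl
  rw [LinearMap.mem_ker, ← hco _ ⟨v, hv⟩, h0]
  rfl

/-- The invariant subspaces of a nilpotent endomorphism with one-dimensional kernel form a chain:
each is the kernel of the power given by its dimension. -/
theorem eq_ker_pow_finrank (f : Module.End K V) (hf : IsNilpotent f)
    (h1 : finrank K (LinearMap.ker f) ≤ 1) (W : Submodule K V) (hW : ∀ v ∈ W, f v ∈ W) :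
    W = LinearMap.ker (f ^ finrank K W) :=
  Submodule.eq_of_le_of_finrank_le (le_ker_pow_finrank f hf W hW) (finrank_ker_pow_le f h1 _)

/-- Invariant subspaces of a regular nilpotent are ordered by their dimensions. -/
theorem le_of_finrank_le (f : Module.End K V) (hf : IsNilpotent f)
    (h1 : finrank K (LinearMap.ker f) ≤ 1) (U W : Submodule K V) (hU : ∀ v ∈ U, f v ∈ U)
    (hW : ∀ v ∈ W, f v ∈ W) (h : finrank K U ≤ finrank K W) : U ≤ W := by
  rw [eq_ker_pow_finrank f hf h1 U hU, eq_ker_pow_finrank f hf h1 W hW]
  intro v hv
  rw [LinearMap.mem_ker] at hv ⊢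
  rw [← Nat.sub_add_cancel h, pow_add, Module.End.mul_apply, hv, map_zero]

/-- The matrix version of the hypotheses: rank `n - 1` gives kernel of dimension at most one. -/
theorem finrank_ker_mulVecLin_le_one {n : Type*} [Fintype n] [DecidableEq n] (N : Matrix n n K)
    (h : N.rank = Fintype.card n - 1) : finrank K (LinearMap.ker N.mulVecLin) ≤ 1 := by
  have h2 := LinearMap.finrank_range_add_finrank_ker N.mulVecLin
  rw [Matrix.rank] at h
  rw [Module.finrank_fintype_fun_eq_card] at h2
  omega

theorem mulVecLin_pow {n : Type*} [Fintype n] [DecidableEq n] (N : Matrix n n K) (k : ℕ) :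
    (N ^ k).mulVecLin = N.mulVecLin ^ k := by
  induction k with
  | zero => simp [Module.End.one_eq_id]
  | succ k ih => rw [pow_succ, pow_succ, Matrix.mulVecLin_mul, ih]; rfl

end CfsgLib.Generators
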