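import Mathlib
import Cfsg.Agent.Lib.Generators.RegularUnipotent

/-! The centraliser of a regular nilpotent matrix, and uniqueness of its similarity class. -/

namespace CfsgLib.Generators

open Matrix Module

variable {F : Type*} [Field F] {n : ℕ}

/-- The shift matrix: ones at the entries `(i + 1, i)`. -/
def shiftMatrix (n : ℕ) (F : Type*) [Zero F] [One F] : Matrix (Fin n) (Fin n) F :=
  Matrix.of fun i j => if (i : ℕ) = (j : ℕ) + 1 then 1 else 0

theorem shiftMatrix_pow_apply (k : ℕ) (i j : Fin n) :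
    (shiftMatrix n F ^ k) i j = if (i : ℕ) = (j : ℕ) + k then 1 else 0 := by
  induction k generalizing j with
  | zero => simp [Matrix.one_apply, Fin.ext_iff]
  | succ k ih =>
    rw [pow_succ, Matrix.mul_apply]
    simp only [ih]
    simp only [shiftMatrix, Matrix.of_apply]
    by_cases h : (j : ℕ) + 1 < n
    · rw [Finset.sum_eq_single ⟨(j : ℕ) + 1, h⟩]
      · simp [add_assoc, add_comm 1 k]
      · intro b _ hb
        have : (b : ℕ) ≠ (j : ℕ) + 1 := fun h' => hb (Fin.ext h')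
        simp [this]
      · simp
    · rw [if_neg (show ¬ (i : ℕ) = (j : ℕ) + (k + 1) by omega)]
      refine Finset.sum_eq_zero fun b _ => ?_
      rw [if_neg (show ¬ (b : ℕ) = (j : ℕ) + 1 by omega), mul_zero]

theorem shiftMatrix_pow_self : shiftMatrix n F ^ n = 0 := by
  ext i j
  rw [shiftMatrix_pow_apply, if_neg (show ¬ (i : ℕ) = (j : ℕ) + n by omega)]
  rfl

theorem shiftMatrix_rank : (shiftMatrix n F).rank = n - 1 := by
  rcases Nat.eq_zero_or_pos n with rfl | hn
  · exact Nat.le_zero.mp (Matrix.rank_le_height _)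
  refine le_antisymm ?_ ?_
  · rw [Matrix.rank]
    have h1 := LinearMap.finrank_range_add_finrank_ker (shiftMatrix n F).mulVecLin
    rw [Module.finrank_fin_fun] at h1
    have h2 : LinearMap.ker (shiftMatrix n F).mulVecLin ≠ ⊥ := by
      rw [Submodule.ne_bot_iff]
      refine ⟨Pi.single ⟨n - 1, by omega⟩ 1, ?_, by simp⟩
      rw [LinearMap.mem_ker, Matrix.mulVecLin_apply, Matrix.mulVec_single_one]
      ext i
      simp only [Matrix.col_apply, shiftMatrix, Matrix.of_apply, Pi.zero_apply]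
      rw [if_neg (by omega)]
    have := Submodule.one_le_finrank_iff.mpr h2
    omega
  · have hli : LinearIndependent F (fun k : Fin (n - 1) => (Pi.single ⟨(k : ℕ) + 1, by omega⟩ (1 : F) : Fin n → F)) := by
      have := (Pi.basisFun F (Fin n)).linearIndependent.comp
        (fun k : Fin (n - 1) => (⟨(k : ℕ) + 1, by omega⟩ : Fin n)) (fun a b h => Fin.ext (by simpa using h))
      simpa [Function.comp_def] using this
    have h := finrank_span_eq_card hli
    rw [Fintype.card_fin] at h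
    rw [Matrix.rank, ← h]
    refine Submodule.finrank_mono (Submodule.span_le.mpr ?_)
    rintro _ ⟨k, rfl⟩
    refine ⟨Pi.single ⟨k, by omega⟩ 1, ?_⟩
    rw [Matrix.mulVecLin_apply, Matrix.mulVec_single_one]
    ext i
    simp [shiftMatrix, Pi.single_apply, Fin.ext_iff]

/-- A nilpotent matrix of rank `n - 1` has a cyclic vector. -/
theorem exists_cyclic (N : Matrix (Fin n) (Fin n) F) (hN : N ^ n = 0) (hr : N.rank = n - 1) :
    ∃ v : Fin n → F, LinearIndependent F (fun i : Fin n => (N ^ (i : ℕ)) *ᵥ v) := by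
  rcases Nat.eq_zero_or_pos n with rfl | hn
  · exact ⟨0, linearIndependent_empty_type⟩
  have h1 := finrank_ker_mulVecLin_le_one N (by rw [hr, Fintype.card_fin])
  have hne : LinearMap.ker ((N ^ (n - 1)).mulVecLin) ≠ ⊤ := by
    intro h
    have h2 := finrank_ker_pow_le N.mulVecLin h1 (n - 1)
    rw [← mulVecLin_pow, h, finrank_top, Module.finrank_fin_fun] at h2
    omega
  obtain ⟨v, hv⟩ := SetLike.exists_not_mem_of_ne_top _ hne
  rw [LinearMap.mem_ker, Matrix.mulVecLin_apply] at hv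
  refine ⟨v, Fintype.linearIndependent_iff.mpr fun c hc => ?_⟩
  intro i
  obtain ⟨k, hk⟩ : ∃ k, (i : ℕ) = k := ⟨_, rfl⟩
  induction k using Nat.strong_induction_on generalizing i with
  | h k ih =>
    have h := congrArg (fun x => (N ^ (n - 1 - k)) *ᵥ x) hc
    simp only [Matrix.mulVec_sum, Matrix.mulVec_smul, Matrix.mulVec_mulVec, ← pow_add, Matrix.mulVec_zero] at h
    rw [Finset.sum_eq_single i] at h
    · rw [show n - 1 - k + (i : ℕ) = n - 1 by omega] at h
      exact (smul_eq_zero.mp h).resolve_right hv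
    · intro j _ hj
      rcases Nat.lt_or_ge (j : ℕ) k with hjk | hjk
      · rw [ih _ hjk j rfl, zero_smul]
      · have hjne : (j : ℕ) ≠ k := fun h' => hj (Fin.ext (h'.trans hk.symm))
        rw [pow_eq_zero_of_le (show n ≤ n - 1 - k + (j : ℕ) by omega) hN, Matrix.zero_mulVec, smul_zero]
    · simp

/-- Polynomial expressions of degree less than `n` in `N`. -/
def polyIn (N : Matrix (Fin n) (Fin n) F) (c : Fin n → F) : Matrix (Fin n) (Fin n) F :=
  ∑ i : Fin n, c i • N ^ (i : ℕ)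

theorem polyIn_mulVec (N : Matrix (Fin n) (Fin n) F) (c : Fin n → F) (v : Fin n → F) :
    polyIn N c *ᵥ v = ∑ i : Fin n, c i • ((N ^ (i : ℕ)) *ᵥ v) := by
  rw [polyIn, Matrix.sum_mulVec]
  exact Finset.sum_congr rfl fun i _ => Matrix.smul_mulVec _ _ _

theorem commute_polyIn (N : Matrix (Fin n) (Fin n) F) (c : Fin n → F) : Commute (polyIn N c) N := by
  exact Commute.sum_left _ _ _ fun i _ => ((Commute.refl N).pow_left _).smul_left _

theorem polyIn_injective {N : Matrix (Fin n) (Fin n) F} (hN : N ^ n = 0) (hr : N.rank = n - 1) :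
    Function.Injective (polyIn N) := by
  obtain ⟨v, hv⟩ := exists_cyclic N hN hr
  intro c d h
  have h' := congrArg (fun X => X *ᵥ v) h
  simp only [polyIn_mulVec] at h'
  exact funext (Fintype.linearIndependent_iffₛ.mp hv _ _ h')

theorem exists_polyIn_eq {N X : Matrix (Fin n) (Fin n) F} (hN : N ^ n = 0) (hr : N.rank = n - 1)
    (hX : Commute X N) : ∃ c, polyIn N c = X := by
  obtain ⟨v, hv⟩ := exists_cyclic N hN hr
  have hspan := hv.span_eq_top_of_card_eq_finrank' (by rw [Fintype.card_fin, Module.finrank_fin_fun])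
  obtain ⟨c, hc⟩ := (Submodule.mem_span_range_iff_exists_fun F).mp (hspan ▸ Submodule.mem_top : X *ᵥ v ∈ _)
  refine ⟨c, Matrix.toLin'.injective (LinearMap.ext_on_range hspan fun i => ?_)⟩
  rw [Matrix.toLin'_apply, Matrix.toLin'_apply, Matrix.mulVec_mulVec, Matrix.mulVec_mulVec,
    ((commute_polyIn N c).pow_right _).eq, (hX.pow_right _).eq, ← Matrix.mulVec_mulVec, ← Matrix.mulVec_mulVec,
    polyIn_mulVec, hc]

theorem polyIn_sub_scalar_nilpotent {N : Matrix (Fin n) (Fin n) F} (hN : N ^ n = 0) (hn : 0 < n) (c : Fin n → F) :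
    IsNilpotent (polyIn N c - c ⟨0, hn⟩ • 1) := by
  classical
  have hsum : polyIn N c - c ⟨0, hn⟩ • 1 = N * ∑ i ∈ Finset.univ.erase ⟨0, hn⟩, c i • N ^ ((i : ℕ) - 1) := by
    rw [Finset.mul_sum, polyIn, ← Finset.add_sum_erase _ _ (Finset.mem_univ (⟨0, hn⟩ : Fin n))]
    simp only [pow_zero, add_sub_cancel_left]
    refine Finset.sum_congr rfl fun i hi => ?_
    have : (i : ℕ) ≠ 0 := fun h => (Finset.ne_of_mem_erase hi) (Fin.ext h)
    rw [Matrix.mul_smul, ← pow_succ', Nat.sub_add_cancel (by omega)]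
  rw [hsum]
  refine ⟨n, ?_⟩
  have hcomm : Commute N (∑ i ∈ Finset.univ.erase (⟨0, hn⟩ : Fin n), c i • N ^ ((i : ℕ) - 1)) :=
    Commute.sum_right _ _ _ fun i _ => ((Commute.refl N).pow_right _).smul_right _
  rw [hcomm.mul_pow, hN, zero_mul]

theorem det_polyIn {N : Matrix (Fin n) (Fin n) F} (hN : N ^ n = 0) (hn : 0 < n) (c : Fin n → F) :
    (polyIn N c).det = c ⟨0, hn⟩ ^ n := by
  set M := -(polyIn N c - c ⟨0, hn⟩ • 1) with hM
  have hnil : IsNilpotent (Matrix.toLin' M) := by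
    obtain ⟨k, hk⟩ := (polyIn_sub_scalar_nilpotent hN hn c).neg
    exact ⟨k, by rw [Matrix.toLin'_apply', ← mulVecLin_pow, hk, Matrix.mulVecLin_zero]⟩
  have h1 := IsNilpotent.charpoly_eq_X_pow_finrank hnil
  rw [Matrix.charpoly_toLin', Module.finrank_fin_fun] at h1
  have h2 := Matrix.eval_charpoly M (c ⟨0, hn⟩)
  rw [h1, Polynomial.eval_pow, Polynomial.eval_X, hM, sub_neg_eq_add, Matrix.scalar_apply,
    ← Matrix.smul_one_eq_diagonal, add_sub_cancel] at h2
  exact h2.symm

theorem isUnit_polyIn_iff {N : Matrix (Fin n) (Fin n) F} (hN : N ^ n = 0) (hn : 0 < n) (c : Fin n → F) :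
    IsUnit (polyIn N c) ↔ c ⟨0, hn⟩ ≠ 0 := by
  rw [Matrix.isUnit_iff_isUnit_det, det_polyIn hN hn, isUnit_iff_ne_zero]
  exact (pow_ne_zero_iff (by omega))

/-- A nilpotent matrix of rank `n - 1` is similar to the shift matrix. -/
theorem exists_conj_shift {N : Matrix (Fin n) (Fin n) F} (hN : N ^ n = 0) (hr : N.rank = n - 1) :
    ∃ g : GL (Fin n) F, N * (g : Matrix (Fin n) (Fin n) F) = (g : Matrix (Fin n) (Fin n) F) * shiftMatrix n F := by
  obtain ⟨v, hv⟩ := exists_cyclic N hN hr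
  set g : Matrix (Fin n) (Fin n) F := (Matrix.of fun j : Fin n => (N ^ (j : ℕ)) *ᵥ v)ᵀ with hg
  have hgu : IsUnit g := Matrix.linearIndependent_cols_iff_isUnit.mp hv
  refine ⟨hgu.unit, ?_⟩
  rw [IsUnit.unit_spec]
  refine Matrix.ext fun i j => ?_
  have hL : (N * g) i j = ((N ^ ((j : ℕ) + 1)) *ᵥ v) i := by
    rw [pow_succ', ← Matrix.mulVec_mulVec, Matrix.mul_apply]
    rfl
  rw [hL, Matrix.mul_apply]
  by_cases h : (j : ℕ) + 1 < n
  · rw [Finset.sum_eq_single ⟨(j : ℕ) + 1, h⟩]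
    · simp [shiftMatrix, hg]
    · intro b _ hb
      have : (b : ℕ) ≠ (j : ℕ) + 1 := fun h' => hb (Fin.ext h')
      simp [shiftMatrix, this]
    · simp
  · rw [pow_eq_zero_of_le (show n ≤ (j : ℕ) + 1 by omega) hN, Matrix.zero_mulVec, Pi.zero_apply]
    symm
    refine Finset.sum_eq_zero fun b _ => ?_
    simp [shiftMatrix, show ¬ (b : ℕ) = (j : ℕ) + 1 by omega]

end CfsgLib.Generators
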