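import Mathlib

/-! Every square matrix over a field is similar to its transpose. -/

namespace CfsgLib.Generators

open Polynomial Module

section Cyclic

variable {F : Type*} [Field F]

/-- The top-coefficient functional on `F[X]` modulo a monic polynomial. -/
noncomputable def topCoeff (g : F[X]) : F[X] →ₗ[F] F :=
  (lcoeff F (g.natDegree - 1)).comp (modByMonicHom g)

theorem topCoeff_of_dvd {g a : F[X]} (hg : g.Monic) (h : g ∣ a) : topCoeff g a = 0 := by
  simp [topCoeff, (modByMonic_eq_zero_iff_dvd hg).mpr h]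

theorem dvd_of_topCoeff_eq_zero {g a : F[X]} (hg : g.Monic)
    (h : ∀ b, topCoeff g (a * b) = 0) : g ∣ a := by
  rw [← modByMonic_eq_zero_iff_dvd hg]
  by_contra hr
  set r := a %ₘ g with hrdef
  have hdeg : r.degree < g.degree := degree_modByMonic_lt a hg
  have hlt : r.natDegree < g.natDegree := natDegree_lt_natDegree hr hdeg
  set j := g.natDegree - 1 - r.natDegree
  have h1 := h (X ^ j)
  have h2 : (a * X ^ j) %ₘ g = r * X ^ j := by
    have e : (a * X ^ j) %ₘ g = (r * X ^ j) %ₘ g := by
      refine (sub_eq_zero.mp ?_)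
      rw [← sub_modByMonic, ← sub_mul, modByMonic_eq_zero_iff_dvd hg]
      exact Dvd.dvd.mul_right ⟨a /ₘ g, by rw [hrdef]; linear_combination -(modByMonic_add_div a (q := g))⟩ _
    rw [e, modByMonic_eq_self_iff hg, degree_mul, degree_X_pow, degree_eq_natDegree hr,
      degree_eq_natDegree hg.ne_zero, ← Nat.cast_add, Nat.cast_lt]
    omega
  rw [topCoeff, LinearMap.comp_apply, modByMonicHom_apply, h2, lcoeff_apply,
    show g.natDegree - 1 = r.natDegree + j by omega, coeff_mul_X_pow] at h1
  exact hr (leadingCoeff_eq_zero.mp h1)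

end Cyclic

/-- An endomorphism of a finite-dimensional space is self-adjoint for a nondegenerate bilinear form. -/
theorem exists_nondegenerate_selfAdjoint {F : Type*} [Field F] {V : Type*} [AddCommGroup V] [Module F V]
    [FiniteDimensional F V] (f : Module.End F V) :
    ∃ B : LinearMap.BilinForm F V, B.SeparatingLeft ∧ ∀ u v, B (f u) v = B u (f v) := by
  classical
  obtain ⟨ι, _, p, hp, e, ⟨E⟩⟩ := Module.equiv_directSum_of_isTorsion (R := F[X])
    (M := AEval' f) (AEval.isTorsion_of_finiteDimensional F V f)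
  set g : ι → F[X] := fun i => p i ^ e i * C (p i ^ e i).leadingCoeff⁻¹ with hgdef
  have hg : ∀ i, (g i).Monic := fun i => monic_mul_leadingCoeff_inv (pow_ne_zero _ (hp i).ne_zero)
  have hdvd : ∀ i a, g i ∣ a ↔ p i ^ e i ∣ a := fun i a => by
    have hu : IsUnit (C (p i ^ e i).leadingCoeff⁻¹) :=
      isUnit_C.mpr (isUnit_iff_ne_zero.mpr (inv_ne_zero (leadingCoeff_ne_zero.mpr (pow_ne_zero _ (hp i).ne_zero))))
    exact hu.mul_right_dvd
  have hrep : ∀ (i : ι) (x : F[X] ⧸ Submodule.span F[X] {p i ^ e i}), ∃ a, Submodule.Quotient.mk a = x :=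
    fun i => Submodule.Quotient.mk_surjective _
  choose out hout using hrep
  have heq : ∀ i (a b : F[X]), (Submodule.Quotient.mk a : F[X] ⧸ Submodule.span F[X] {p i ^ e i}) = Submodule.Quotient.mk b
      ↔ g i ∣ a - b := fun i a b => by
    rw [Submodule.Quotient.eq, Submodule.mem_span_singleton, hdvd]
    constructor
    · rintro ⟨c, hc⟩; exact ⟨c, by rw [← hc, smul_eq_mul, mul_comm]⟩
    · rintro ⟨c, hc⟩; exact ⟨c, by rw [hc, smul_eq_mul, mul_comm]⟩
  set co : ι → V → F[X] := fun i u => out i (E (AEval'.of f u) i) with hco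
  set φ : ι → F[X] → F[X] → F := fun i a b => topCoeff (g i) (a * b) with hφ
  have hcong : ∀ i a a' b, (Submodule.Quotient.mk a : F[X] ⧸ Submodule.span F[X] {p i ^ e i}) = Submodule.Quotient.mk a'
      → φ i a b = φ i a' b := fun i a a' b h => by
    rw [← sub_eq_zero, hφ]
    simp only
    rw [← map_sub, ← sub_mul]
    exact topCoeff_of_dvd (hg i) (((heq i a a').mp h).mul_right b)
  have hadd : ∀ i u u', (Submodule.Quotient.mk (co i (u + u')) : F[X] ⧸ Submodule.span F[X] {p i ^ e i})
      = Submodule.Quotient.mk (co i u + co i u') := fun i u u' => by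
    rw [Submodule.Quotient.mk_add]
    simp only [hco, hout, map_add, DirectSum.add_apply]
  have hsmul : ∀ i (c : F) u, (Submodule.Quotient.mk (co i (c • u)) : F[X] ⧸ Submodule.span F[X] {p i ^ e i})
      = Submodule.Quotient.mk (C c * co i u) := fun i c u => by
    rw [← smul_eq_mul, Submodule.Quotient.mk_smul]
    simp only [hco, hout, map_smul]
    rw [← AEval.C_smul, map_smul]
    rfl
  have hX : ∀ i u, (Submodule.Quotient.mk (co i (f u)) : F[X] ⧸ Submodule.span F[X] {p i ^ e i})
      = Submodule.Quotient.mk (X * co i u) := fun i u => by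
    rw [← smul_eq_mul, Submodule.Quotient.mk_smul]
    simp only [hco, hout]
    rw [← AEval'.X_smul_of, map_smul]
    rfl
  have hcongr : ∀ i a b b', (Submodule.Quotient.mk b : F[X] ⧸ Submodule.span F[X] {p i ^ e i}) = Submodule.Quotient.mk b'
      → φ i a b = φ i a b' := fun i a b b' h => by
    have := hcong i b b' a h
    simpa [hφ, mul_comm] using this
  refine ⟨LinearMap.mk₂ F (fun u v => ∑ i, φ i (co i u) (co i v)) ?_ ?_ ?_ ?_, ?_, ?_⟩
  · intro u u' v
    rw [← Finset.sum_add_distrib]
    refine Finset.sum_congr rfl fun i _ => ?_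
    rw [hcong i _ _ _ (hadd i u u'), hφ]
    simp [add_mul]
  · intro c u v
    rw [Finset.smul_sum]
    refine Finset.sum_congr rfl fun i _ => ?_
    rw [hcong i _ _ _ (hsmul i c u), hφ]
    simp only
    rw [mul_assoc, ← smul_eq_C_mul, map_smul]
  · intro u v v'
    rw [← Finset.sum_add_distrib]
    refine Finset.sum_congr rfl fun i _ => ?_
    rw [hcongr i _ _ _ (hadd i v v'), hφ]
    simp [mul_add]
  · intro c u v
    rw [Finset.smul_sum]
    refine Finset.sum_congr rfl fun i _ => ?_
    rw [hcongr i _ _ _ (hsmul i c v), hφ]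
    simp only
    rw [mul_left_comm, ← smul_eq_C_mul, map_smul]
  · intro u hu
    suffices E (AEval'.of f u) = 0 by
      rwa [LinearEquiv.map_eq_zero_iff, LinearEquiv.map_eq_zero_iff] at this
    refine DFunLike.ext _ _ fun i => ?_
    rw [← hout i (E (AEval'.of f u) i)]
    show _ = (0 : F[X] ⧸ Submodule.span F[X] {p i ^ e i})
    rw [← Submodule.Quotient.mk_zero, heq, sub_zero]
    refine dvd_of_topCoeff_eq_zero (hg i) fun b => ?_
    set v := (AEval'.of f).symm (E.symm (DirectSum.lof F[X] ι _ i (Submodule.Quotient.mk b))) with hv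
    have hEv : E (AEval'.of f v) = DirectSum.lof F[X] ι _ i (Submodule.Quotient.mk b) := by simp [hv]
    have h1 := hu v
    rw [LinearMap.mk₂_apply, Finset.sum_eq_single i] at h1
    · rw [hcongr i _ _ b] at h1
      · exact h1
      · simp only [hco, hout, hEv, DirectSum.lof_eq_of, DirectSum.of_eq_same]
    · intro j _ hj
      rw [hcongr j _ _ 0]
      · simp [hφ]
      · simp only [hco, hout, hEv, DirectSum.lof_eq_of, DirectSum.of_eq_of_ne _ _ _ hj, Submodule.Quotient.mk_zero]
    · simp
  · intro u v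
    simp only [LinearMap.mk₂_apply]
    refine Finset.sum_congr rfl fun i _ => ?_
    rw [hcong i _ _ _ (hX i u), hcongr i _ _ _ (hX i v), hφ]
    simp only
    rw [mul_left_comm, mul_assoc]

/-- A square matrix over a field is similar to its transpose. -/
theorem isConj_transpose {F : Type*} [Field F] {n : Type*} [Fintype n] [DecidableEq n]
    (A : Matrix n n F) : IsConj A A.transpose := by
  obtain ⟨B, hB, hsa⟩ := exists_nondegenerate_selfAdjoint (Matrix.toLin' A)
  set P := LinearMap.toMatrix₂' F B with hP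
  have hval : ∀ u v, B u v = u ⬝ᵥ P.mulVec v := fun u v => by
    rw [← Matrix.toLinearMap₂'_apply', hP, Matrix.toLinearMap₂'_toMatrix']
  have hu : IsUnit P := by
    rw [← Matrix.vecMul_injective_iff_isUnit]
    intro a b hab
    simp only at hab
    refine sub_eq_zero.mp (hB _ fun w => ?_)
    rw [hval, Matrix.dotProduct_mulVec, Matrix.sub_vecMul, hab, sub_self, zero_dotProduct]
  refine ⟨hu.unit, ?_⟩
  show (hu.unit : Matrix n n F) * A = A.transpose * (hu.unit : Matrix n n F)
  rw [IsUnit.unit_spec, hP]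
  have h1 : B.compl₂ (Matrix.toLin' A) = LinearMap.comp B (Matrix.toLin' A) :=
    LinearMap.ext₂ fun u v => (hsa u v).symm
  have h2 := congrArg (LinearMap.toMatrix₂' F) h1
  rw [LinearMap.toMatrix₂'_compl₂, LinearMap.toMatrix₂'_comp, LinearMap.toMatrix'_toLin'] at h2
  exact h2

end CfsgLib.Generators
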