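import Mathlib
import Cfsg.Prelude.Def_JordanBlocks
import Cfsg.Agent.Lib.Classes.NilpotentSimilar
import Cfsg.Agent.Lib.Generators.RegularUnipotent
import Cfsg.Agent.Lib.Omega.JordanType
import Cfsg.Agent.Lib.Omega.SquareCases

/-!
Jordan types of unipotent isometries of alternating and quadratic forms: parity of the multiplicities and
models for the admissible types.
-/

set_option autoImplicit false

namespace CfsgLib.Generators.UnipotentTypes

open Module
open LinearMap (BilinForm)

variable {F : Type*} [Field F]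

section Basics

variable {V : Type*} [AddCommGroup V] [Module F V]

/-- The rank sequence of `N` is that of the Jordan type `μ`. -/
def RankType (N : End F V) (μ : Multiset ℕ) : Prop :=
  ∀ i, finrank F (LinearMap.range (N ^ i)) = (μ.map fun b => b - i).sum

theorem RankType.finrank_eq {N : End F V} {μ : Multiset ℕ} (h : RankType N μ) : finrank F V = μ.sum := by
  have := h 0
  rw [pow_zero, End.one_eq_id, LinearMap.range_id, finrank_top] at this
  simpa using this

theorem RankType.count {N : End F V} {μ : Multiset ℕ} (h : RankType N μ) (i : ℕ) :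
    finrank F (LinearMap.range (N ^ i)) + finrank F (LinearMap.range (N ^ (i + 2))) =
      2 * finrank F (LinearMap.range (N ^ (i + 1))) + μ.count (i + 1) := by
  rw [h, h, h]
  exact CfsgLib.Omega.sum_sub_count μ i

variable [FiniteDimensional F V]

theorem finrank_range_conj {W : Type*} [AddCommGroup W] [Module F W] (e : V ≃ₗ[F] W) {N : End F V}
    {M : End F W} (h : ∀ x, e (N x) = M (e x)) (i : ℕ) :
    finrank F (LinearMap.range (M ^ i)) = finrank F (LinearMap.range (N ^ i)) := by
  have hp : ∀ j x, e ((N ^ j) x) = (M ^ j) (e x) := by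
    intro j
    induction j with
    | zero => intro x; simp
    | succ j ih => intro x; rw [pow_succ', pow_succ', End.mul_apply, End.mul_apply, h, ih]
  have himg : LinearMap.range (M ^ i) = (LinearMap.range (N ^ i)).map e.toLinearMap := by
    ext y
    constructor
    · rintro ⟨z, rfl⟩
      exact ⟨(N ^ i) (e.symm z), LinearMap.mem_range_self _ _, by simp [hp]⟩
    · rintro ⟨_, ⟨z, rfl⟩, rfl⟩
      exact ⟨e z, (hp i z).symm⟩
  rw [himg, e.finrank_map_eq]

theorem RankType.conj {W : Type*} [AddCommGroup W] [Module F W] (e : V ≃ₗ[F] W) {N : End F V}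
    {M : End F W} {μ : Multiset ℕ} (h : ∀ x, e (N x) = M (e x)) (hN : RankType N μ) : RankType M μ :=
  fun i => (finrank_range_conj e h i).trans (hN i)

theorem finrank_ker_pow (N : End F V) (i : ℕ) :
    finrank F (LinearMap.range (N ^ i)) + finrank F (LinearMap.ker (N ^ i)) = finrank F V :=
  LinearMap.finrank_range_add_finrank_ker _

/-- A nilpotent map with kernel of dimension at most one is a single block. -/
theorem rankType_single (N : End F V) (hN : IsNilpotent N) (h1 : finrank F (LinearMap.ker N) ≤ 1) :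
    RankType N {finrank F V} := by
  intro i
  rw [Multiset.map_singleton, Multiset.sum_singleton]
  induction i with
  | zero => rw [pow_zero, End.one_eq_id, LinearMap.range_id, finrank_top, Nat.sub_zero]
  | succ i ih =>
    have h := CfsgLib.Omega.rankSeq_succ_add N ⊤ i
    simp only [CfsgLib.Omega.rankSeq] at h
    have e : ∀ l, (⊤ : Submodule F V).map (N ^ l : End F V) = LinearMap.range (N ^ l) := fun l => Submodule.map_top _
    rw [e, e] at h
    have hle : finrank F ↥(LinearMap.ker N ⊓ LinearMap.range (N ^ i)) ≤ 1 :=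
      (Submodule.finrank_mono inf_le_left).trans h1
    rcases Nat.eq_zero_or_pos (finrank F (LinearMap.range (N ^ i))) with h0 | h0
    · omega
    have hlt : 0 < finrank F ↥(LinearMap.ker N ⊓ LinearMap.range (N ^ i)) := by
      by_contra hc
      have hbot : LinearMap.ker N ⊓ LinearMap.range (N ^ i) = ⊥ := Submodule.finrank_eq_zero.mp (by omega)
      obtain ⟨k, hk⟩ := hN
      have hne : LinearMap.range (N ^ i) ≠ ⊥ := fun e => by rw [e, finrank_bot] at h0; omega
      obtain ⟨x, hx, hx0⟩ := Submodule.exists_mem_ne_zero_of_ne_bot hne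
      have key : ∀ j, (N ^ j) x ∈ LinearMap.range (N ^ i) ∧ (N ^ j) x ≠ 0 := by
        intro j
        induction j with
        | zero => simpa using And.intro hx hx0
        | succ j ih' =>
          obtain ⟨⟨z, hz⟩, hne'⟩ := ih'
          rw [pow_succ', End.mul_apply]
          refine ⟨⟨N z, ?_⟩, fun e => hne' ?_⟩
          · rw [← End.mul_apply, ← pow_succ, pow_succ', End.mul_apply, hz]
          · have : (N ^ j) x ∈ LinearMap.ker N ⊓ LinearMap.range (N ^ i) := ⟨e, ⟨z, hz⟩⟩
            rw [hbot, Submodule.mem_bot] at this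
            exact this
      exact (key k).2 (by rw [hk]; rfl)
    omega

end Basics

section Parity

variable {V : Type*} [AddCommGroup V] [Module F V] [FiniteDimensional F V] {B : BilinForm F V}
  {u : End F V}

/-- A unipotent map is invertible. -/
theorem exists_inverse (hN : IsNilpotent (u - 1)) : ∃ v : End F V, u * v = 1 ∧ v * u = 1 := by
  have h : IsUnit u := by
    have := hN.isUnit_one_add
    rwa [add_sub_cancel] at this
  exact ⟨_, h.mul_val_inv, h.val_inv_mul⟩

theorem commute_sub_one {v : End F V} (h1 : u * v = 1) (h2 : v * u = 1) : Commute (u - 1) v := by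
  show (u - 1) * v = v * (u - 1)
  rw [sub_mul, mul_sub, h1, h2, one_mul, mul_one]

theorem adjoint_left {v : End F V} (hu : ∀ x y, B (u x) (u y) = B x y) (h1 : u * v = 1) (h2 : v * u = 1)
    (x y : V) : B ((u - 1) x) y = B x ((-((u - 1) * v)) y) := by
  have e : -((u - 1) * v) = v - 1 := by rw [sub_mul, h1, one_mul, neg_sub]
  rw [e, LinearMap.sub_apply, LinearMap.sub_apply, End.one_apply, End.one_apply, map_sub,
    LinearMap.sub_apply, map_sub]
  congr 1
  rw [← hu x (v y), ← End.mul_apply u v, h1, End.one_apply]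

theorem adjoint_right {v : End F V} (hu : ∀ x y, B (u x) (u y) = B x y) (h1 : u * v = 1) (h2 : v * u = 1)
    (x y : V) : B x ((u - 1) y) = B ((-((u - 1) * v)) x) y := by
  have e : -((u - 1) * v) = v - 1 := by rw [sub_mul, h1, one_mul, neg_sub]
  rw [e, LinearMap.sub_apply, LinearMap.sub_apply, End.one_apply, End.one_apply, map_sub, map_sub,
    LinearMap.sub_apply]
  congr 1
  rw [← hu (v x) y, ← End.mul_apply u v, h1, End.one_apply]

theorem adjoint_left_pow {v : End F V} (hu : ∀ x y, B (u x) (u y) = B x y) (h1 : u * v = 1) (h2 : v * u = 1)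
    (i : ℕ) : ∀ x y, B (((u - 1) ^ i) x) y = B x (((-((u - 1) * v)) ^ i) y) := by
  induction i with
  | zero => intro x y; simp
  | succ i ih => intro x y; rw [pow_succ, pow_succ', End.mul_apply, End.mul_apply, ih, adjoint_left hu h1 h2]

theorem adjoint_right_pow {v : End F V} (hu : ∀ x y, B (u x) (u y) = B x y) (h1 : u * v = 1) (h2 : v * u = 1)
    (i : ℕ) : ∀ x y, B x (((u - 1) ^ i) y) = B (((-((u - 1) * v)) ^ i) x) y := by
  induction i with
  | zero => intro x y; simp
  | succ i ih => intro x y; rw [pow_succ, pow_succ', End.mul_apply, End.mul_apply, ih, adjoint_right hu h1 h2]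

theorem neg_mul_pow {v : End F V} (hc : Commute (u - 1) v) (i : ℕ) :
    (-((u - 1) * v)) ^ i = (-1 : End F V) ^ i * v ^ i * (u - 1) ^ i := by
  rw [neg_pow, hc.mul_pow, (hc.pow_pow i i).eq, mul_assoc]

/-- The image of a power of `u - 1` is the orthogonal of its kernel. -/
theorem range_eq_orthogonal (hB : B.Nondegenerate) (hu : ∀ x y, B (u x) (u y) = B x y)
    (hN : IsNilpotent (u - 1)) (i : ℕ) :
    LinearMap.range ((u - 1) ^ i) = B.orthogonal (LinearMap.ker ((u - 1) ^ i)) := by
  obtain ⟨v, h1, h2⟩ := exists_inverse hN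
  refine Submodule.eq_of_le_of_finrank_eq ?_ ?_
  · rintro _ ⟨z, rfl⟩ y hy
    show B y (((u - 1) ^ i) z) = 0
    rw [adjoint_right_pow hu h1 h2, neg_mul_pow (commute_sub_one h1 h2), End.mul_apply, LinearMap.mem_ker.mp hy,
      map_zero, map_zero, LinearMap.zero_apply]
  · rw [LinearMap.BilinForm.finrank_orthogonal hB]
    have := finrank_ker_pow (u - 1) i
    omega

/-- The number of blocks of size `i + 1` is even when `B(x, N ^ i x)` vanishes on the kernel of `N ^ (i + 1)`. -/
theorem even_of_alternating (hB : B.Nondegenerate) (hrefl : B.IsRefl) (hu : ∀ x y, B (u x) (u y) = B x y)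
    (hN : IsNilpotent (u - 1)) (i : ℕ) (halt : ∀ x, ((u - 1) ^ (i + 1)) x = 0 → B x (((u - 1) ^ i) x) = 0)
    {μ : Multiset ℕ} (hμ : RankType (u - 1) μ) : Even (μ.count (i + 1)) := by
  obtain ⟨v, h1, h2⟩ := exists_inverse hN
  have hc := commute_sub_one h1 h2
  set N := u - 1 with hNdef
  let W := LinearMap.ker (N ^ (i + 1))
  let β : BilinForm F W := B.compl₁₂ W.subtype ((N ^ i).comp W.subtype)
  have hβ : ∀ x y : W, β x y = B (x : V) ((N ^ i) (y : V)) := fun _ _ => rfl
  have halt' : β.IsAlt := fun x => halt x x.2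
  let S := LinearMap.ker β
  obtain ⟨C, hC⟩ := Submodule.exists_isCompl S
  have hev : Even (finrank F C) := by
    refine CfsgLib.Omega.even_finrank_of_alternating (β.compl₁₂ C.subtype C.subtype) (fun x => halt' _) fun x hx => ?_
    have hxS : (x : W) ∈ S := by
      refine LinearMap.ext fun y => ?_
      obtain ⟨s, hs, c, hcC, rfl⟩ := Submodule.mem_sup.mp (show y ∈ S ⊔ C by rw [hC.sup_eq_top]; trivial)
      rw [map_add, LinearMap.zero_apply]
      have e1 : β (x : W) s = 0 := by
        rw [← halt'.neg_eq, show β s = 0 from hs, LinearMap.zero_apply, neg_zero]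
      rw [e1, show β (x : W) c = 0 from hx ⟨c, hcC⟩, add_zero]
    have : (x : W) ∈ S ⊓ C := ⟨hxS, x.2⟩
    rw [hC.inf_eq_bot, Submodule.mem_bot] at this
    exact Subtype.ext this
  let T := (LinearMap.ker (N ^ (i + 2))).map N
  have hpw : ∀ (j : ℕ) (x : V), (N ^ j) (N x) = (N ^ (j + 1)) x := fun j x => by rw [pow_succ, End.mul_apply]
  have hS : S.map W.subtype = LinearMap.ker (N ^ i) ⊔ T := by
    apply le_antisymm
    · rintro _ ⟨x, hx, rfl⟩
      have ha : (N ^ i) (x : V) ∈ LinearMap.range (N ^ (i + 1)) := by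
        rw [hNdef, range_eq_orthogonal hB hu hN]
        intro y hy
        show B y (((u - 1) ^ i) (x : V)) = 0
        refine hrefl _ _ ?_
        rw [adjoint_left_pow hu h1 h2, neg_pow, hc.mul_pow, End.mul_apply, End.mul_apply]
        have hmem : (N ^ i) ((v ^ i) y) ∈ LinearMap.ker (N ^ 1) := by
          rw [LinearMap.mem_ker, ← End.mul_apply, ← pow_add, ← End.mul_apply, (hc.pow_pow _ _).eq, End.mul_apply,
            show (N ^ (1 + i)) y = 0 by rw [add_comm]; exact hy, map_zero]
        have hyW : (v ^ i) y ∈ W := by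
          rw [LinearMap.mem_ker, ← End.mul_apply, (hc.pow_pow _ _).eq, End.mul_apply, show (N ^ (i + 1)) y = 0 from hy,
            map_zero]
        have hsign : ((-1 : End F V) ^ i) ((N ^ i) ((v ^ i) y)) = ((-1 : F) ^ i) • (N ^ i) ((v ^ i) y) := by
          rcases Nat.even_or_odd i with h | h <;> simp [h.neg_one_pow]
        rw [hsign, map_smul]
        have h0 := LinearMap.congr_fun (LinearMap.mem_ker.mp hx) ⟨_, hyW⟩
        rw [hβ, LinearMap.zero_apply] at h0
        rw [show B (x : V) ((N ^ i) ((v ^ i) y)) = 0 from h0, smul_zero]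
      obtain ⟨z, hz⟩ := ha
      refine Submodule.mem_sup.mpr ⟨(x : V) - N z, ?_, N z, ⟨z, ?_, rfl⟩, sub_add_cancel _ _⟩
      · rw [LinearMap.mem_ker, map_sub, hpw, hz, sub_self]
      · show (N ^ (i + 2)) z = 0
        rw [pow_succ', End.mul_apply, hz, ← End.mul_apply, ← pow_succ']
        exact x.2
    · refine sup_le (fun x hx => ?_) ?_
      · have hxW : x ∈ W := by
          show (N ^ (i + 1)) x = 0
          rw [pow_succ', End.mul_apply, LinearMap.mem_ker.mp hx, map_zero]
        refine ⟨⟨x, hxW⟩, ?_, rfl⟩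
        refine LinearMap.ext fun y => ?_
        rw [hβ, LinearMap.zero_apply, adjoint_right_pow hu h1 h2, neg_mul_pow hc, End.mul_apply,
          LinearMap.mem_ker.mp hx, map_zero, map_zero, LinearMap.zero_apply]
      · rintro _ ⟨z, hz, rfl⟩
        have hzW : N z ∈ W := by
          show (N ^ (i + 1)) (N z) = 0
          rw [hpw]; exact hz
        refine ⟨⟨N z, hzW⟩, ?_, rfl⟩
        refine LinearMap.ext fun y => ?_
        rw [hβ, LinearMap.zero_apply]
        show B (N z) ((N ^ i) (y : V)) = 0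
        rw [adjoint_right_pow hu h1 h2, neg_mul_pow hc, End.mul_apply, hpw, ← End.mul_apply]
        have hco : Commute ((-1 : End F V) ^ i * v ^ i) (N ^ (i + 1)) :=
          (((Commute.one_left N).neg_left).pow_pow i (i + 1)).mul_left (hc.symm.pow_pow i (i + 1))
        rw [hco.eq, End.mul_apply, adjoint_left_pow hu h1 h2, neg_mul_pow hc]
        simp only [End.mul_apply]
        rw [show ((u - 1) ^ (i + 1)) (y : V) = 0 from y.2]
        simp only [map_zero]
  have hker1 : ∀ j, 1 ≤ j → LinearMap.ker N ≤ LinearMap.ker (N ^ j) := fun j hj x hx => by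
    obtain ⟨j, rfl⟩ := Nat.exists_eq_add_of_le' hj
    rw [LinearMap.mem_ker, pow_succ, End.mul_apply, LinearMap.mem_ker.mp hx, map_zero]
  have hmapdim : ∀ j, 1 ≤ j → finrank F ↥((LinearMap.ker (N ^ j)).map N) + finrank F (LinearMap.ker N) =
      finrank F (LinearMap.ker (N ^ j)) := by
    intro j hj
    have h := (N.domRestrict (LinearMap.ker (N ^ j))).finrank_range_add_finrank_ker
    have h' : finrank F ↥(LinearMap.ker (N.domRestrict (LinearMap.ker (N ^ j)))) = finrank F (LinearMap.ker N) := by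
      rw [← Submodule.finrank_map_subtype_eq, LinearMap.ker_domRestrict, Submodule.map_comap_subtype,
        inf_eq_right.mpr (hker1 j hj)]
    rw [LinearMap.range_domRestrict, h'] at h
    exact h
  have hinf : LinearMap.ker (N ^ i) ⊓ T = (LinearMap.ker (N ^ (i + 1))).map N := by
    ext x
    constructor
    · rintro ⟨hx, z, -, rfl⟩
      refine ⟨z, ?_, rfl⟩
      rw [SetLike.mem_coe, LinearMap.mem_ker, ← hpw]
      exact hx
    · rintro ⟨z, hz, rfl⟩
      refine ⟨?_, z, ?_, rfl⟩
      · rw [SetLike.mem_coe, LinearMap.mem_ker, hpw]; exact hz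
      · rw [SetLike.mem_coe, LinearMap.mem_ker, pow_succ', End.mul_apply, LinearMap.mem_ker.mp hz, map_zero]
  have hsup := Submodule.finrank_sup_add_finrank_inf_eq (LinearMap.ker (N ^ i)) T
  rw [← hS, hinf, Submodule.finrank_map_subtype_eq] at hsup
  have hm1 := hmapdim (i + 1) (by omega)
  have hm2 : finrank F T + finrank F (LinearMap.ker N) = finrank F (LinearMap.ker (N ^ (i + 2))) :=
    hmapdim (i + 2) (by omega)
  have hWS := Submodule.finrank_add_eq_of_isCompl hC
  have hcount := hμ.count i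
  have k0 := finrank_ker_pow N i
  have k1 := finrank_ker_pow N (i + 1)
  have k2 := finrank_ker_pow N (i + 2)
  obtain ⟨c, hc'⟩ := hev
  refine ⟨c, ?_⟩
  have hW : finrank F W = finrank F (LinearMap.ker (N ^ (i + 1))) := rfl
  omega

/-- The correction term: `v ^ j - 1` is a multiple of `u - 1`. -/
theorem exists_pow_sub_one {v : End F V} (h1 : u * v = 1) (h2 : v * u = 1) (j : ℕ) :
    ∃ M : End F V, v ^ j = 1 + (u - 1) * M ∧ Commute (u - 1) M := by
  have hc := commute_sub_one h1 h2
  induction j with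
  | zero => exact ⟨0, by simp, Commute.zero_right _⟩
  | succ j ih =>
    obtain ⟨M, hM, hMc⟩ := ih
    refine ⟨M * v - v, ?_, (hMc.mul_right hc).sub_right hc⟩
    rw [pow_succ, hM, mul_sub, ← mul_assoc, add_mul, one_mul]
    have e : (u - 1) * v = 1 - v := by rw [sub_mul, h1, one_mul]
    rw [e]; abel

/-- Alternating forms: the blocks of odd size come in pairs. -/
theorem even_count_odd (hB : B.Nondegenerate) (halt : B.IsAlt) (hu : ∀ x y, B (u x) (u y) = B x y)
    (hN : IsNilpotent (u - 1)) {μ : Multiset ℕ} (hμ : RankType (u - 1) μ) (b : ℕ) (hb : Odd b) :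
    Even (μ.count b) := by
  obtain ⟨j, rfl⟩ := hb
  refine even_of_alternating hB halt.isRefl hu hN (2 * j) (fun x hx => ?_) hμ
  obtain ⟨v, h1, h2⟩ := exists_inverse hN
  have hc := commute_sub_one h1 h2
  obtain ⟨M, hM, hMc⟩ := exists_pow_sub_one h1 h2 j
  rw [two_mul, pow_add, End.mul_apply, adjoint_right_pow hu h1 h2, neg_mul_pow hc, End.mul_apply, hM]
  have hw : B ((((u - 1) * M)) (((u - 1) ^ j) x)) (((u - 1) ^ j) x) = 0 := by
    rw [End.mul_apply, ← End.mul_apply M, ← (hMc.pow_left j).eq, End.mul_apply, ← End.mul_apply (u - 1), ← pow_succ',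
      adjoint_left_pow hu h1 h2, neg_mul_pow hc, End.mul_apply, ← End.mul_apply ((u - 1) ^ (j + 1)), ← pow_add,
      show ((u - 1) ^ (j + 1 + j)) x = 0 by rw [show j + 1 + j = 2 * j + 1 by ring]; exact hx, map_zero, map_zero]
  rw [End.mul_apply] at hw
  rcases Nat.even_or_odd j with h | h <;>
    simp only [h.neg_one_pow, End.mul_apply, End.one_apply, LinearMap.neg_apply, LinearMap.add_apply, map_add, map_neg,
      hw, halt.self_eq_zero, add_zero, neg_zero]

/-- Symmetric forms, odd characteristic: the blocks of even size come in pairs. -/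
theorem even_count_even (h2F : (2 : F) ≠ 0) (hB : B.Nondegenerate) (hsym : ∀ x y, B x y = B y x)
    (hu : ∀ x y, B (u x) (u y) = B x y) (hN : IsNilpotent (u - 1)) {μ : Multiset ℕ} (hμ : RankType (u - 1) μ)
    (b : ℕ) (hb : Even b) (hb0 : 0 < b) : Even (μ.count b) := by
  obtain ⟨j', rfl⟩ := hb
  obtain ⟨j, rfl⟩ : ∃ j, j' = j + 1 := ⟨j' - 1, by omega⟩
  rw [show j + 1 + (j + 1) = (2 * j + 1) + 1 by ring]
  refine even_of_alternating hB (fun x y h => (hsym y x).trans h) hu hN (2 * j + 1) (fun x hx => ?_) hμ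
  obtain ⟨v, h1, h2⟩ := exists_inverse hN
  have hc := commute_sub_one h1 h2
  obtain ⟨M, hM, hMc⟩ := exists_pow_sub_one h1 h2 j
  set w := ((u - 1) ^ j) x with hwdef
  have hz : ∀ z, B (((u - 1) ^ (j + 1)) z) ((u - 1) w) = 0 := by
    intro z
    rw [adjoint_left_pow hu h1 h2, neg_mul_pow hc, End.mul_apply, hwdef, ← End.mul_apply (u - 1), ← pow_succ',
      ← End.mul_apply ((u - 1) ^ (j + 1)), ← pow_add,
      show ((u - 1) ^ (j + 1 + (j + 1))) x = 0 by rw [show j + 1 + (j + 1) = 2 * j + 1 + 1 by ring]; exact hx,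
      map_zero, map_zero]
  have hNw : (u - 1) w = ((u - 1) ^ (j + 1)) x := by rw [pow_succ', End.mul_apply]
  have hww : B w ((u - 1) w) = 0 := by
    have e := hu w w
    rw [show u w = w + (u - 1) w by simp] at e
    simp only [map_add, LinearMap.add_apply] at e
    rw [show B ((u - 1) w) ((u - 1) w) = 0 by nth_rewrite 1 [hNw]; exact hz x, hsym ((u - 1) w) w, add_zero] at e
    have e2 : (2 : F) * B w ((u - 1) w) = 0 := by linear_combination e
    exact (mul_eq_zero.mp e2).resolve_left h2F
  rw [show 2 * j + 1 = j + (j + 1) by ring, pow_add, End.mul_apply, ← hNw, adjoint_right_pow hu h1 h2,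
    neg_mul_pow hc, End.mul_apply, hM, ← hwdef]
  have hw : B ((((u - 1) * M)) w) ((u - 1) w) = 0 := by
    rw [hwdef, End.mul_apply, ← End.mul_apply M, ← (hMc.pow_left j).eq, End.mul_apply, ← End.mul_apply (u - 1),
      ← pow_succ', ← hwdef]
    exact hz _
  rw [End.mul_apply] at hw
  rcases Nat.even_or_odd j with h | h <;>
    simp only [h.neg_one_pow, End.mul_apply, End.one_apply, LinearMap.neg_apply, LinearMap.add_apply, map_add,
      map_neg, hw, hww, add_zero, neg_zero]

end Parity

section Models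

universe w

variable (F)

/-- `μ` is the Jordan type of a unipotent isometry of a non-degenerate alternating form. -/
def AltType (μ : Multiset ℕ) : Prop :=
  ∃ (n : ℕ) (B : BilinForm F (Fin n → F)) (u : End F (Fin n → F)), B.Nondegenerate ∧ B.IsAlt ∧
    (∀ x y, B (u x) (u y) = B x y) ∧ IsNilpotent (u - 1) ∧ RankType (u - 1) μ

/-- `μ` is the Jordan type of a unipotent isometry of a quadratic form with non-degenerate polar form. -/
def QuadType (μ : Multiset ℕ) : Prop :=
  ∃ (n : ℕ) (Q : QuadraticForm F (Fin n → F)) (u : End F (Fin n → F)), (QuadraticMap.polarBilin Q).Nondegenerate ∧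
    (∀ x, Q (u x) = Q x) ∧ IsNilpotent (u - 1) ∧ RankType (u - 1) μ

variable {F}

theorem isNilpotent_conj {V W : Type*} [AddCommGroup V] [Module F V] [AddCommGroup W] [Module F W] (e : V ≃ₗ[F] W)
    {u : End F V} (hN : IsNilpotent (u - 1)) : IsNilpotent (e.conj u - 1) := by
  have h : e.conjAlgEquiv F (u - 1) = e.conj u - 1 := by rw [map_sub, map_one]; rfl
  exact h ▸ hN.map _

theorem altType_of_model {V : Type*} [AddCommGroup V] [Module F V] [FiniteDimensional F V] {B : BilinForm F V}
    {u : End F V} {μ : Multiset ℕ} (hB : B.Nondegenerate) (hA : B.IsAlt) (hu : ∀ x y, B (u x) (u y) = B x y)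
    (hN : IsNilpotent (u - 1)) (hμ : RankType (u - 1) μ) : AltType F μ := by
  let e := (finBasis F V).equivFun
  refine ⟨finrank F V, B.compl₁₂ e.symm.toLinearMap e.symm.toLinearMap, e.conj u, ⟨fun x hx => ?_, fun x hx => ?_⟩,
    fun x => hA _, fun x y => ?_, isNilpotent_conj e hN, RankType.conj e (fun x => ?_) hμ⟩
  · exact e.symm.injective ((hB.1 _ fun y => by simpa using hx (e y)).trans (map_zero _).symm)
  · exact e.symm.injective ((hB.2 _ fun y => by simpa using hx (e y)).trans (map_zero _).symm)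
  · simp [LinearEquiv.conj_apply, hu]
  · simp [LinearEquiv.conj_apply]

theorem quadType_of_model {V : Type*} [AddCommGroup V] [Module F V] [FiniteDimensional F V] {Q : QuadraticForm F V}
    {u : End F V} {μ : Multiset ℕ} (hB : (QuadraticMap.polarBilin Q).Nondegenerate) (hu : ∀ x, Q (u x) = Q x)
    (hN : IsNilpotent (u - 1)) (hμ : RankType (u - 1) μ) : QuadType F μ := by
  let e := (finBasis F V).equivFun
  have hp : ∀ x y, QuadraticMap.polarBilin (Q.comp e.symm.toLinearMap) x y =
      QuadraticMap.polarBilin Q (e.symm x) (e.symm y) := fun x y => by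
    simp [QuadraticMap.polar, map_add]
  refine ⟨finrank F V, Q.comp e.symm.toLinearMap, e.conj u, ⟨fun x hx => ?_, fun x hx => ?_⟩,
    fun x => ?_, isNilpotent_conj e hN, RankType.conj e (fun x => ?_) hμ⟩
  · refine e.symm.injective ((hB.1 _ fun y => ?_).trans (map_zero _).symm)
    have := hx (e y); rwa [hp, e.symm_apply_apply] at this
  · refine e.symm.injective ((hB.2 _ fun y => ?_).trans (map_zero _).symm)
    have := hx (e y); rwa [hp, e.symm_apply_apply] at this
  · simp [LinearEquiv.conj_apply, hu]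
  · simp [LinearEquiv.conj_apply]

theorem prodMap_pow {V W : Type*} [AddCommGroup V] [Module F V] [AddCommGroup W] [Module F W] (f : End F V)
    (g : End F W) (i : ℕ) : (LinearMap.prodMap f g : End F (V × W)) ^ i = LinearMap.prodMap (f ^ i) (g ^ i) := by
  induction i with
  | zero => rw [pow_zero, pow_zero, pow_zero]; exact LinearMap.ext fun x => rfl
  | succ i ih => rw [pow_succ, ih, pow_succ, pow_succ]; exact LinearMap.ext fun x => rfl

theorem finrank_submodule_prod {V W : Type*} [AddCommGroup V] [Module F V] [FiniteDimensional F V] [AddCommGroup W]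
    [Module F W] [FiniteDimensional F W] (p : Submodule F V) (q : Submodule F W) :
    finrank F (p.prod q) = finrank F p + finrank F q := by
  let e : (p.prod q) ≃ₗ[F] p × q :=
    { toFun := fun x => (⟨x.1.1, x.2.1⟩, ⟨x.1.2, x.2.2⟩)
      invFun := fun x => ⟨(x.1.1, x.2.1), x.1.2, x.2.2⟩
      left_inv := fun _ => rfl
      right_inv := fun _ => rfl
      map_add' := fun _ _ => rfl
      map_smul' := fun _ _ => rfl }
  rw [e.finrank_eq, Module.finrank_prod]

theorem prodMap_sub_one {V W : Type*} [AddCommGroup V] [Module F V] [AddCommGroup W] [Module F W] (f : End F V)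
    (g : End F W) : (LinearMap.prodMap f g : End F (V × W)) - 1 = LinearMap.prodMap (f - 1) (g - 1) :=
  LinearMap.ext fun x => rfl

theorem sum_models {V W : Type*} [AddCommGroup V] [Module F V] [FiniteDimensional F V] [AddCommGroup W]
    [Module F W] [FiniteDimensional F W] {f : End F V} {g : End F W} {μ ν : Multiset ℕ}
    (hf : IsNilpotent (f - 1)) (hg : IsNilpotent (g - 1)) (hμ : RankType (f - 1) μ) (hν : RankType (g - 1) ν) :
    IsNilpotent ((LinearMap.prodMap f g : End F (V × W)) - 1) ∧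
      RankType ((LinearMap.prodMap f g : End F (V × W)) - 1) (μ + ν) := by
  rw [prodMap_sub_one]
  refine ⟨?_, fun i => ?_⟩
  · obtain ⟨a, ha⟩ := hf
    obtain ⟨b, hb⟩ := hg
    refine ⟨a + b, ?_⟩
    rw [prodMap_pow, pow_add, ha, zero_mul, pow_add, hb, mul_zero]
    exact LinearMap.ext fun x => rfl
  · rw [prodMap_pow, LinearMap.range_prodMap, finrank_submodule_prod, hμ, hν, Multiset.map_add, Multiset.sum_add]

theorem AltType.add {μ ν : Multiset ℕ} (h1 : AltType F μ) (h2 : AltType F ν) : AltType F (μ + ν) := by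
  obtain ⟨a, B, f, hB, hA, hu, hf, hμ⟩ := h1
  obtain ⟨b, C, g, hC, hA', hv, hg, hν⟩ := h2
  obtain ⟨hn, hr⟩ := sum_models hf hg hμ hν
  let D : BilinForm F ((Fin a → F) × (Fin b → F)) :=
    B.compl₁₂ (LinearMap.fst F _ _) (LinearMap.fst F _ _) + C.compl₁₂ (LinearMap.snd F _ _) (LinearMap.snd F _ _)
  have hD : ∀ x y, D x y = B x.1 y.1 + C x.2 y.2 := fun _ _ => rfl
  refine altType_of_model (B := D) ⟨fun x hx => ?_, fun x hx => ?_⟩ (fun x => ?_) (fun x y => ?_) hn hr
  · refine Prod.ext (hB.1 _ fun y => ?_) (hC.1 _ fun y => ?_)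
    · simpa [hD] using hx (y, 0)
    · simpa [hD] using hx (0, y)
  · refine Prod.ext (hB.2 _ fun y => ?_) (hC.2 _ fun y => ?_)
    · simpa [hD] using hx (y, 0)
    · simpa [hD] using hx (0, y)
  · rw [hD, hA, hA', add_zero]
  · rw [hD, hD]; simp [hu, hv]

theorem QuadType.add {μ ν : Multiset ℕ} (h1 : QuadType F μ) (h2 : QuadType F ν) : QuadType F (μ + ν) := by
  obtain ⟨a, Q, f, hQ, hu, hf, hμ⟩ := h1
  obtain ⟨b, R, g, hR, hv, hg, hν⟩ := h2
  obtain ⟨hn, hr⟩ := sum_models hf hg hμ hν
  have hD : ∀ x y : (Fin a → F) × (Fin b → F), QuadraticMap.polarBilin (Q.prod R) x y =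
      QuadraticMap.polarBilin Q x.1 y.1 + QuadraticMap.polarBilin R x.2 y.2 := fun x y => by
    simp [QuadraticMap.polar]
  refine quadType_of_model (Q := Q.prod R) ⟨fun x hx => ?_, fun x hx => ?_⟩ (fun x => ?_) hn hr
  · refine Prod.ext (hQ.1 _ fun y => ?_) (hR.1 _ fun y => ?_)
    · have := hx (y, 0); rwa [hD, map_zero, add_zero] at this
    · have := hx (0, y); rwa [hD, map_zero, zero_add] at this
  · refine Prod.ext (hQ.2 _ fun y => ?_) (hR.2 _ fun y => ?_)
    · have := hx (y, 0); rwa [hD, map_zero, LinearMap.zero_apply, add_zero] at this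
    · have := hx (0, y); rwa [hD, map_zero, LinearMap.zero_apply, zero_add] at this
  · simp [hu, hv]

theorem AltType.zero : AltType F 0 :=
  ⟨0, 0, 1, ⟨fun x _ => Subsingleton.elim _ _, fun x _ => Subsingleton.elim _ _⟩, fun _ => rfl, fun _ _ => rfl,
    by simp, fun i => by
      rw [Multiset.map_zero, Multiset.sum_zero, ← Nat.le_zero]
      exact (Submodule.finrank_le _).trans (by simp)⟩

theorem QuadType.zero : QuadType F 0 :=
  ⟨0, 0, 1, ⟨fun x _ => Subsingleton.elim _ _, fun x _ => Subsingleton.elim _ _⟩, fun _ => rfl,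
    by simp, fun i => by
      rw [Multiset.map_zero, Multiset.sum_zero, ← Nat.le_zero]
      exact (Submodule.finrank_le _).trans (by simp)⟩

theorem QuadType.altType [CharP F 2] {μ : Multiset ℕ} (h : QuadType F μ) : AltType F μ := by
  obtain ⟨n, Q, u, hQ, hu, hn, hr⟩ := h
  refine ⟨n, QuadraticMap.polarBilin Q, u, hQ, fun x => ?_, fun x y => ?_, hn, hr⟩
  · simp [two_smul, CharTwo.add_self_eq_zero]
  · simp [QuadraticMap.polar, ← map_add, hu]

/-- One block of size `b` as an automorphism. -/
theorem exists_block (b : ℕ) : ∃ g : (End F (Fin b → F))ˣ,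
    IsNilpotent ((g : End F (Fin b → F)) - 1) ∧ RankType ((g : End F (Fin b → F)) - 1) {b} := by
  obtain ⟨N, hN, hr⟩ := CfsgLib.Omega.exists_nilpotent_of_parts (F := F) (V := Fin b → F) (p := b) {b}
    (by simp) (by simp)
  have hu : IsUnit (1 + N) := IsNilpotent.isUnit_one_add ⟨b, hN⟩
  refine ⟨hu.unit, ?_, ?_⟩
  · rw [IsUnit.unit_spec, add_sub_cancel_left]; exact ⟨b, hN⟩
  · intro i
    rw [IsUnit.unit_spec, add_sub_cancel_left, ← hr i, CfsgLib.Omega.rankSeq, Submodule.map_top]

theorem pair_model (b : ℕ) : ∃ g : (End F (Fin b → F))ˣ,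
    IsNilpotent ((LinearMap.prodMap (g : End F (Fin b → F)) ((↑g⁻¹ : End F (Fin b → F)).dualMap) :
      End F ((Fin b → F) × Module.Dual F (Fin b → F))) - 1) ∧
    RankType ((LinearMap.prodMap (g : End F (Fin b → F)) ((↑g⁻¹ : End F (Fin b → F)).dualMap) :
      End F ((Fin b → F) × Module.Dual F (Fin b → F))) - 1) ({b} + {b}) := by
  obtain ⟨g, hn, hr⟩ := exists_block (F := F) b
  set N := (g : End F (Fin b → F)) - 1 with hNdef
  set M := (↑g⁻¹ : End F (Fin b → F)) - 1 with hMdef
  have hMN : M = -(↑g⁻¹ * N) := by rw [hNdef, hMdef, mul_sub, Units.inv_mul, mul_one, neg_sub]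
  have hc : Commute (↑g⁻¹ : End F (Fin b → F)) N := by
    show _ * _ = _ * _
    rw [hNdef, mul_sub, sub_mul, Units.inv_mul, Units.mul_inv, mul_one, one_mul]
  have hpow : ∀ i, M ^ i = ((-1 : End F (Fin b → F)) ^ i * (↑g⁻¹ : End F (Fin b → F)) ^ i) * N ^ i := fun i => by
    rw [hMN]
    exact (neg_pow ((↑g⁻¹ : End F (Fin b → F)) * N) i).trans (by rw [hc.mul_pow, mul_assoc])
  have hdual : ∀ i, (M.dualMap : End F (Module.Dual F (Fin b → F))) ^ i = (M ^ i).dualMap := by
    intro i
    induction i with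
    | zero => rw [pow_zero, pow_zero]; exact (LinearMap.dualMap_id).symm
    | succ i ih => rw [pow_succ, ih, pow_succ']; rfl
  have hsub : ((↑g⁻¹ : End F (Fin b → F)).dualMap : End F (Module.Dual F (Fin b → F))) - 1 = M.dualMap :=
    LinearMap.ext fun φ => LinearMap.ext fun x => by simp [hMdef]
  refine ⟨g, sum_models hn ?_ hr ?_⟩
  · rw [hsub]
    obtain ⟨k, hk⟩ := hn
    exact ⟨k, by rw [hdual, hpow, hk, mul_zero]; exact LinearMap.ext fun φ => LinearMap.ext fun x => φ.map_zero⟩
  · intro i
    rw [hsub, hdual, LinearMap.finrank_range_dualMap_eq_finrank_range, hpow, ← hr i]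
    have hu : IsUnit ((-1 : End F (Fin b → F)) ^ i * (↑g⁻¹ : End F (Fin b → F)) ^ i) :=
      ((isUnit_one.neg).pow i).mul ((g⁻¹).isUnit.pow i)
    obtain ⟨U, hU⟩ := hu
    rw [← hU, End.mul_eq_comp, LinearMap.range_comp]
    exact ((LinearMap.GeneralLinearGroup.toLinearEquiv U).finrank_map_eq _)

theorem AltType.pair (b : ℕ) : AltType F ({b} + {b}) := by
  obtain ⟨g, hn, hr⟩ := pair_model (F := F) b
  let D : BilinForm F ((Fin b → F) × Module.Dual F (Fin b → F)) :=
    LinearMap.mk₂ F (fun x y => x.2 y.1 - y.2 x.1)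
      (fun a c y => by simp; ring) (fun t a y => by simp; ring) (fun a c y => by simp; ring) (fun t a y => by simp; ring)
  have hD : ∀ x y, D x y = x.2 y.1 - y.2 x.1 := fun _ _ => rfl
  have hnd : ∀ x : (Fin b → F) × Module.Dual F (Fin b → F), (∀ y, D x y = 0) → x = 0 := fun x hx => by
    refine Prod.ext ((Module.forall_dual_apply_eq_zero_iff F x.1).mp fun φ => ?_) (LinearMap.ext fun y => ?_)
    · simpa [hD] using hx (0, φ)
    · simpa [hD] using hx (y, 0)
  refine altType_of_model (B := D) ⟨hnd, fun y hy => hnd y fun x => ?_⟩ (fun x => sub_self _) (fun x y => ?_) hn hr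
  · have := hy x
    rw [hD] at this ⊢
    linear_combination -this
  · simp only [hD, LinearMap.prodMap_apply, LinearMap.dualMap_apply]
    rw [← End.mul_apply, ← End.mul_apply, Units.inv_mul, End.one_apply, End.one_apply]

theorem QuadType.pair (b : ℕ) : QuadType F ({b} + {b}) := by
  obtain ⟨g, hn, hr⟩ := pair_model (F := F) b
  let D : BilinForm F ((Fin b → F) × Module.Dual F (Fin b → F)) :=
    LinearMap.mk₂ F (fun x y => x.2 y.1)
      (fun a c y => by simp) (fun t a y => by simp) (fun a c y => by simp) (fun t a y => by simp)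
  have hp : ∀ x y, QuadraticMap.polarBilin (LinearMap.BilinMap.toQuadraticMap D) x y = x.2 y.1 + y.2 x.1 := fun x y => by
    rw [QuadraticMap.polarBilin_apply_apply, LinearMap.BilinMap.polar_toQuadraticMap]; rfl
  have hnd : ∀ x, (∀ y, QuadraticMap.polarBilin (LinearMap.BilinMap.toQuadraticMap D) x y = 0) → x = 0 := fun x hx => by
    refine Prod.ext ((Module.forall_dual_apply_eq_zero_iff F x.1).mp fun φ => ?_) (LinearMap.ext fun y => ?_)
    · simpa [hp] using hx (0, φ)
    · simpa [hp] using hx (y, 0)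
  refine quadType_of_model (Q := LinearMap.BilinMap.toQuadraticMap D) ⟨hnd, fun y hy => hnd y fun x => ?_⟩
    (fun x => ?_) hn hr
  · have := hy x
    rw [hp] at this ⊢
    linear_combination this
  · show (x.2.comp (↑g⁻¹ : End F (Fin b → F))) ((g : End F (Fin b → F)) x.1) = x.2 x.1
    rw [LinearMap.comp_apply, ← End.mul_apply, Units.inv_mul, End.one_apply]

section Single

open Polynomial

/-- Odd characteristic: one block with the form `λ(f * conj g)` on `F[T]/(T ^ (n + 1))`. -/
theorem exists_single (h2F : (2 : F) ≠ 0) (n : ℕ) :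
    ∃ (B : BilinForm F (AdjoinRoot ((X : F[X]) ^ (n + 1)))) (u : End F (AdjoinRoot ((X : F[X]) ^ (n + 1)))),
      B.Nondegenerate ∧ (∀ x y, B y x = (-1) ^ n * B x y) ∧ (∀ x y, B (u x) (u y) = B x y) ∧
      IsNilpotent (u - 1) ∧ RankType (u - 1) {n + 1} := by
  classical
  set P : F[X] := X ^ (n + 1) with hP
  set τ : AdjoinRoot P := AdjoinRoot.root P with hτdef
  have hτ : τ ^ (n + 1) = 0 := by
    rw [hτdef, ← AdjoinRoot.mk_X, ← map_pow]
    exact AdjoinRoot.mk_self
  have hPm : P.Monic := Polynomial.monic_X_pow _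
  let pb := AdjoinRoot.powerBasis' hPm
  haveI : Module.Finite F (AdjoinRoot P) := hPm.finite_adjoinRoot
  have hdim : pb.dim = n + 1 := by simp [pb, hP]
  let bas := pb.basis.reindex (finCongr hdim)
  have hbas : ∀ a, bas a = τ ^ (a : ℕ) := fun a => by
    simp [bas, pb, PowerBasis.coe_basis, hτdef]
  obtain ⟨ε, hε⟩ : IsUnit (1 + τ) := IsNilpotent.isUnit_one_add ⟨n + 1, hτ⟩
  set v : AdjoinRoot P := ↑ε⁻¹ with hv
  have hεv : (1 + τ) * v = 1 := by rw [← hε, hv, Units.mul_inv]
  let σ : AdjoinRoot P →ₐ[F] AdjoinRoot P :=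
    AdjoinRoot.liftAlgHom P (Algebra.ofId F _) (-τ * v) (by
      show Polynomial.eval₂ _ _ ((X : F[X]) ^ (n + 1)) = 0
      rw [Polynomial.eval₂_X_pow, mul_pow, neg_pow, hτ, mul_zero, zero_mul])
  have hστ : σ τ = -τ * v := AdjoinRoot.liftAlgHom_root _ _ _ _
  have hσ1 : σ (1 + τ) = v := by
    rw [map_add, map_one, hστ]
    linear_combination (-1 : AdjoinRoot P) * hεv
  have hσv : σ v = 1 + τ := by
    have h := congrArg σ hεv
    rw [map_mul, hσ1, map_one] at h
    linear_combination (1 + τ) * h - σ v * hεv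
  have hσσ : ∀ x, σ (σ x) = x := fun x => by
    have : σ.comp σ = AlgHom.id F _ := AdjoinRoot.algHom_ext (by
      show σ (σ τ) = τ
      rw [hστ, map_mul, map_neg, hστ, hσv]
      linear_combination τ * hεv)
    exact AlgHom.congr_fun this x
  have hvn : τ ^ n * v ^ n = τ ^ n := by
    have h1 : ∀ j, τ ^ n * v ^ j = τ ^ n := by
      intro j
      induction j with
      | zero => simp
      | succ j ih =>
        rw [pow_succ, ← mul_assoc, ih]
        have e : τ ^ n * v * (1 + τ) = τ ^ n := by rw [mul_assoc, mul_comm v, hεv, mul_one]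
        have e0 : τ ^ n * v * τ = 0 := by
          rw [mul_comm (τ ^ n) v, mul_assoc, ← pow_succ, hτ, mul_zero]
        linear_combination e - e0
    exact h1 n
  have hσn : σ (τ ^ n) = (-1) ^ n * τ ^ n := by
    rw [map_pow, hστ, mul_pow, neg_pow, mul_assoc, hvn]
  let l₀ : AdjoinRoot P →ₗ[F] F := bas.coord (Fin.last n)
  have hl₀ : l₀ (τ ^ n) = 1 := by
    rw [show τ ^ n = bas (Fin.last n) by rw [hbas, Fin.val_last]]
    simp [l₀]
  let l : AdjoinRoot P →ₗ[F] F := l₀ + ((-1 : F) ^ n) • (l₀.comp σ.toLinearMap)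
  have hsq : ((-1 : F) ^ n) * ((-1 : F) ^ n) = 1 := by rw [← pow_add, ← two_mul, pow_mul, neg_one_sq, one_pow]
  have hlσ : ∀ x, l (σ x) = (-1) ^ n * l x := fun x => by
    simp only [l, LinearMap.add_apply, LinearMap.smul_apply, LinearMap.comp_apply, AlgHom.toLinearMap_apply, hσσ,
      smul_eq_mul]
    linear_combination (-(l₀ (σ x))) * hsq
  have hln : l (τ ^ n) = 2 := by
    simp only [l, LinearMap.add_apply, LinearMap.smul_apply, LinearMap.comp_apply, AlgHom.toLinearMap_apply, hσn, hl₀,
      smul_eq_mul]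
    rw [show (-1 : AdjoinRoot P) ^ n * τ ^ n = ((-1 : F) ^ n) • τ ^ n by rw [Algebra.smul_def, map_pow, map_neg, map_one],
      map_smul, hl₀, smul_eq_mul, mul_one, hsq]
    norm_num
  let B : BilinForm F (AdjoinRoot P) :=
    LinearMap.mk₂ F (fun x y => l (x * σ y))
      (fun a b y => by rw [add_mul, map_add]) (fun c a y => by rw [smul_mul_assoc, map_smul])
      (fun a b y => by rw [map_add, mul_add, map_add]) (fun c a y => by rw [map_smul, mul_smul_comm, map_smul])
  have hBa : ∀ x y, B x y = l (x * σ y) := fun _ _ => rfl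
  let u : End F (AdjoinRoot P) := LinearMap.mulLeft F (1 + τ)
  have hu1 : u - 1 = LinearMap.mulLeft F τ := LinearMap.ext fun x => by
    simp [u, add_mul]
  have hnil : IsNilpotent (u - 1) := ⟨n + 1, by rw [hu1, LinearMap.pow_mulLeft, hτ, LinearMap.mulLeft_zero_eq_zero]⟩
  have hker : ∀ x, τ * x = 0 → x = bas.repr x (Fin.last n) • τ ^ n := by
    intro x hx
    have hli := bas.linearIndependent
    have hsum : ∑ a : Fin n, bas.repr x a.castSucc • bas a.succ = 0 := by
      have h : τ * ∑ a, bas.repr x a • bas a = 0 := by rw [bas.sum_repr]; exact hx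
      rw [Finset.mul_sum, Fin.sum_univ_castSucc] at h
      simp only [hbas, mul_smul_comm, ← pow_succ', Fin.val_last, hτ, smul_zero, add_zero, Fin.val_castSucc] at h
      simpa [hbas] using h
    have hz : ∀ a : Fin n, bas.repr x a.castSucc = 0 :=
      Fintype.linearIndependent_iff.mp (hli.comp Fin.succ (Fin.succ_injective n)) _ hsum
    nth_rewrite 1 [← bas.sum_repr x]
    rw [Fin.sum_univ_castSucc, Finset.sum_eq_zero fun a _ => by rw [hz, zero_smul], zero_add, hbas, Fin.val_last]
  have hk1 : finrank F (LinearMap.ker (u - 1)) ≤ 1 := by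
    refine (Submodule.finrank_mono (fun x hx => ?_)).trans (finrank_span_le_card ({τ ^ n} : Set (AdjoinRoot P)) |>.trans (by simp))
    rw [hu1, LinearMap.mem_ker, LinearMap.mulLeft_apply] at hx
    rw [hker x hx]
    exact Submodule.smul_mem _ _ (Submodule.subset_span rfl)
  have hnd : ∀ x, (∀ y, B x y = 0) → x = 0 := by
    intro x hx
    by_contra hx0
    have hex : ∃ j, τ ^ j * x = 0 := ⟨n + 1, by rw [hτ, zero_mul]⟩
    have hj := Nat.find_spec hex
    obtain ⟨j, hj'⟩ : ∃ j, Nat.find hex = j + 1 := ⟨Nat.find hex - 1, by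
      have : Nat.find hex ≠ 0 := fun e => hx0 (by simpa [e] using hj)
      omega⟩
    rw [hj', pow_succ', mul_assoc] at hj
    have hne : τ ^ j * x ≠ 0 := Nat.find_min hex (by omega)
    have h := hx (σ (τ ^ j))
    rw [hBa, hσσ, mul_comm, hker _ hj, map_smul, hln, smul_eq_mul, mul_eq_zero] at h
    rcases h with h | h
    · exact hne (by rw [hker _ hj, h, zero_smul])
    · exact h2F h
  have hsym : ∀ x y, B y x = (-1) ^ n * B x y := fun x y => by
    rw [hBa, hBa, ← hlσ]
    rw [map_mul σ, hσσ, mul_comm (σ x)]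
  refine ⟨B, u, ⟨hnd, fun y hy => hnd y fun x => ?_⟩, hsym, fun x y => ?_, hnil, ?_⟩
  · rw [hsym, hy, mul_zero]
  · rw [hBa, hBa]
    simp only [u, LinearMap.mulLeft_apply, map_mul, hσ1]
    congr 1
    linear_combination (x * σ y) * hεv
  · have h := rankType_single (u - 1) hnil hk1
    rwa [Module.finrank_eq_card_basis bas, Fintype.card_fin] at h

theorem AltType.single (h2F : (2 : F) ≠ 0) {b : ℕ} (hb : 0 < b) (he : Even b) : AltType F {b} := by
  obtain ⟨n, rfl⟩ : ∃ n, b = n + 1 := ⟨b - 1, by omega⟩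
  obtain ⟨B, u, hB, hs, hu, hn, hr⟩ := exists_single h2F n
  have hodd : Odd n := by
    rcases Nat.even_or_odd n with h | h
    · exact absurd he (by simp [Nat.even_add_one, h])
    · exact h
  haveI : Module.Finite F (AdjoinRoot ((X : F[X]) ^ (n + 1))) := (Polynomial.monic_X_pow _).finite_adjoinRoot
  refine altType_of_model hB (fun x => ?_) hu hn hr
  have h := hs x x
  rw [hodd.neg_one_pow] at h
  have e : (2 : F) * B x x = 0 := by linear_combination h
  exact (mul_eq_zero.mp e).resolve_left h2F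

theorem QuadType.single (h2F : (2 : F) ≠ 0) {b : ℕ} (ho : Odd b) : QuadType F {b} := by
  obtain ⟨n, rfl⟩ : ∃ n, b = n + 1 := ⟨b - 1, by have := ho.pos; omega⟩
  obtain ⟨B, u, hB, hs, hu, hn, hr⟩ := exists_single h2F n
  have heven : Even n := by
    rcases Nat.even_or_odd n with h | h
    · exact h
    · exact absurd ho (by simp [h.add_one])
  haveI : Module.Finite F (AdjoinRoot ((X : F[X]) ^ (n + 1))) := (Polynomial.monic_X_pow _).finite_adjoinRoot
  have hp : ∀ x y, QuadraticMap.polarBilin ((2 : F)⁻¹ • LinearMap.BilinMap.toQuadraticMap B) x y = B x y := fun x y => by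
    have h := hs x y
    rw [heven.neg_one_pow, one_mul] at h
    rw [QuadraticMap.polarBilin_apply_apply, QuadraticMap.coeFn_smul, QuadraticMap.polar_smul,
      LinearMap.BilinMap.polar_toQuadraticMap, h, smul_eq_mul]
    field_simp
    ring
  refine quadType_of_model (Q := (2 : F)⁻¹ • LinearMap.BilinMap.toQuadraticMap B)
    ⟨fun x hx => hB.1 x fun y => (hp x y).symm.trans (hx y), fun x hx => hB.2 x fun y => (hp y x).symm.trans (hx y)⟩
    (fun x => ?_) hn hr
  simp [hu]

end Single

section CharTwo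

variable [CharP F 2]

/-- Characteristic two: one block of any positive even size. -/
theorem QuadType.singleTwo {b : ℕ} (hb : 0 < b) (he : Even b) : QuadType F {b} := by
  obtain ⟨j, rfl⟩ := he
  obtain ⟨k, hjH⟩ : ∃ k, j ≤ 2 ^ k := ⟨j, (Nat.lt_two_pow_self).le⟩
  set H := 2 ^ k with hH
  set m := H - j with hm
  have hHpos : 0 < H := Nat.two_pow_pos k
  haveI : NeZero (2 * H) := ⟨by omega⟩
  let u : End F (ZMod (2 * H) → F) := LinearMap.funLeft F F fun a => a + 1
  have hua : ∀ f a, u f a = f (a + 1) := fun _ _ => rfl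
  have hupow : ∀ (i : ℕ) f a, (u ^ i) f a = f (a + i) := by
    intro i
    induction i with
    | zero => intro f a; simp
    | succ i ih => intro f a; rw [pow_succ', End.mul_apply, hua, ih]; congr 1; push_cast; ring
  have hwrap : ((2 * H : ℕ) : ZMod (2 * H)) = 0 := ZMod.natCast_self _
  have hsub : ∀ x y : F, x - y = x + y := fun x y => CharTwo.sub_eq_add x y
  have hTpow : ∀ (i : ℕ) (f : ZMod (2 * H) → F) (a : ZMod (2 * H)), ((u - 1) ^ (2 ^ i) : End F (ZMod (2 * H) → F)) f a = f (a + (2 ^ i : ℕ)) + f a := by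
    intro i
    induction i with
    | zero => intro f a; simp [hua, hsub]
    | succ i ih =>
      intro f a
      rw [pow_succ, pow_mul, pow_two, End.mul_apply, ih, ih, ih, add_assoc a]
      have h2 := CharTwo.add_self_eq_zero (f (a + ((2 ^ i : ℕ) : ZMod (2 * H))))
      rw [show (((2 ^ i * 2 : ℕ)) : ZMod (2 * H)) = (2 ^ i : ℕ) + (2 ^ i : ℕ) by push_cast; ring]
      linear_combination h2
  have hTpow' : ∀ (i n : ℕ), 2 ^ i = n → ∀ (f : ZMod (2 * H) → F) (a : ZMod (2 * H)),
      ((u - 1) ^ n : End F (ZMod (2 * H) → F)) f a = f (a + (n : ℕ)) + f a := by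
    intro i n hn
    subst hn
    exact hTpow i
  have hnil : (u - 1) ^ (2 * H) = 0 := by
    refine LinearMap.ext fun f => funext fun a => ?_
    rw [hTpow' (k + 1) (2 * H) (by rw [hH, pow_succ']), hwrap]
    simp [CharTwo.add_self_eq_zero]
  have hN : IsNilpotent (u - 1) := ⟨_, hnil⟩
  have hk1 : finrank F (LinearMap.ker (u - 1)) ≤ 1 := by
    refine (Submodule.finrank_mono (fun f hf => ?_)).trans (finrank_span_le_card ({1} : Set (ZMod (2 * H) → F)) |>.trans (by simp))
    rw [LinearMap.mem_ker, LinearMap.sub_apply, End.one_apply, sub_eq_zero] at hf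
    refine Submodule.mem_span_singleton.mpr ⟨f 0, funext fun a => ?_⟩
    have h : ∀ i : ℕ, f (i : ZMod (2 * H)) = f 0 := by
      intro i
      induction i with
      | zero => simp
      | succ i ih => rw [Nat.cast_succ]; exact ((hua f _).symm.trans (congrFun hf _)).trans ih
    rw [← ZMod.natCast_zmod_val a, h]
    simp
  have hdim : finrank F (ZMod (2 * H) → F) = 2 * H := by simp
  have hrk : ∀ i, finrank F (LinearMap.range ((u - 1) ^ i)) = 2 * H - i := fun i => by
    have h := rankType_single (u - 1) hN hk1 i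
    rwa [hdim, Multiset.map_singleton, Multiset.sum_singleton] at h
  -- the form
  let D : BilinForm F (ZMod (2 * H) → F) :=
    ∑ i ∈ Finset.range H, (LinearMap.proj (i : ZMod (2 * H)) : (ZMod (2 * H) → F) →ₗ[F] F).smulRight
      (LinearMap.proj ((i + H : ℕ) : ZMod (2 * H)) : (ZMod (2 * H) → F) →ₗ[F] F)
  have hDa : ∀ f g, D f g = ∑ i ∈ Finset.range H, f (i : ZMod (2 * H)) * g ((i + H : ℕ) : ZMod (2 * H)) := fun f g => by
    simp [D, LinearMap.sum_apply]
  let Q : QuadraticForm F (ZMod (2 * H) → F) := LinearMap.BilinMap.toQuadraticMap D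
  have hQ : ∀ f, Q f = ∑ i ∈ Finset.range H, f (i : ZMod (2 * H)) * f ((i + H : ℕ) : ZMod (2 * H)) := fun f => hDa f f
  set B := QuadraticMap.polarBilin Q with hB
  have hBa : ∀ f g, B f g = D f g + D g f := fun f g => by
    rw [hB, QuadraticMap.polarBilin_apply_apply, LinearMap.BilinMap.polar_toQuadraticMap]
  have hBfull : ∀ f g, B f g = ∑ i ∈ Finset.range (H + H), f (i : ZMod (2 * H)) * g ((i + H : ℕ) : ZMod (2 * H)) := by
    intro f g
    rw [hBa, hDa, hDa, Finset.sum_range_add]
    congr 1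
    refine Finset.sum_congr rfl fun i _ => ?_
    rw [mul_comm]
    congr 2
    · rw [Nat.add_comm H i]
    · rw [show H + i + H = i + 2 * H by ring, Nat.cast_add i (2 * H), hwrap, add_zero]
  have hnd : ∀ f, (∀ g, B f g = 0) → f = 0 := by
    intro f hf
    funext a
    have h := hf (Pi.single (a + (H : ZMod (2 * H))) 1)
    rw [hBfull, Finset.sum_eq_single a.val] at h
    · simpa [Nat.cast_add, ZMod.natCast_zmod_val] using h
    · intro i hi hne
      rw [Pi.single_eq_of_ne, mul_zero]
      intro e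
      rw [Nat.cast_add, add_left_inj] at e
      apply hne
      rw [← e, ZMod.val_natCast, Nat.mod_eq_of_lt]
      have := Finset.mem_range.mp hi
      omega
    · intro hn
      exact absurd (Finset.mem_range.mpr (by have := a.val_lt; omega)) hn
  have hBcomm : ∀ f g, B f g = B g f := fun f g => by rw [hBa, hBa, add_comm]
  have hBn : B.Nondegenerate := ⟨hnd, fun f hf => hnd f fun g => (hBcomm f g).trans (hf g)⟩
  have hQu : ∀ f, Q (u f) = Q f := by
    intro f
    rw [hQ, hQ]
    let p : ℕ → F := fun i => f (i : ZMod (2 * H)) * f ((i + H : ℕ) : ZMod (2 * H))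
    have h1 : ∀ i : ℕ, u f (i : ZMod (2 * H)) * u f ((i + H : ℕ) : ZMod (2 * H)) = p (i + 1) := fun i => by
      simp only [p, hua]; push_cast; ring_nf
    rw [Finset.sum_congr rfl fun i _ => h1 i]
    have h2 := Finset.sum_range_succ p H
    have h3 := Finset.sum_range_succ' p H
    have h4 : p H = p 0 := by
      simp only [p, zero_add]
      rw [show H + H = 2 * H by ring, hwrap, Nat.cast_zero, mul_comm]
    show ∑ i ∈ Finset.range H, p (i + 1) = ∑ i ∈ Finset.range H, p i
    linear_combination -h3 + h2 + h4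
  have hBu : ∀ f g, B (u f) (u g) = B f g := fun f g => by
    simp only [hB, QuadraticMap.polarBilin_apply_apply, QuadraticMap.polar, ← map_add, hQu]
  obtain ⟨v, hv1, hv2⟩ := exists_inverse hN
  -- the subquotient
  let W := LinearMap.ker ((u - 1) ^ m)
  let R := LinearMap.range ((u - 1) ^ m)
  have hWrange : LinearMap.range ((u - 1) ^ (2 * H - m)) = W := by
    refine Submodule.eq_of_le_of_finrank_eq ?_ ?_
    · rintro _ ⟨z, rfl⟩
      rw [LinearMap.mem_ker, ← End.mul_apply, ← pow_add, show m + (2 * H - m) = 2 * H by omega, hnil]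
      rfl
    · have h := finrank_ker_pow (u - 1) m
      rw [hrk, hdim] at h
      rw [hrk]
      have hW : finrank F W = finrank F (LinearMap.ker ((u - 1) ^ m)) := rfl
      omega
  have hWR : W ≤ R := by
    rw [← hWrange]
    rintro _ ⟨z, rfl⟩
    exact ⟨((u - 1) ^ (2 * H - m - m)) z, by rw [← End.mul_apply, ← pow_add, show m + (2 * H - m - m) = 2 * H - m by omega]⟩
  have horth : ∀ w ∈ W, ∀ y ∈ R, B y w = 0 := by
    intro w hw y hy
    have h : y ∈ LinearMap.BilinForm.orthogonal B W := by rw [← range_eq_orthogonal hBn hBu hN m]; exact hy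
    exact (hBcomm y w).trans (h w hw)
  have hQW : ∀ w ∈ W, Q w = 0 := by
    intro w hw
    rw [← hWrange] at hw
    obtain ⟨z, rfl⟩ := hw
    set e := 2 * H - m - 1 - H with he
    rw [show 2 * H - m = 1 + (H + e) by omega, pow_add, pow_one, pow_add, End.mul_apply, End.mul_apply]
    set g := ((u - 1) ^ H) (((u - 1) ^ e) z) with hg
    have hgper : ∀ a, g (a + (H : ZMod (2 * H))) = g a := fun a => by
      rw [hg, hTpow' k H hH.symm, hTpow' k H hH.symm, add_assoc, ← Nat.cast_add, ← two_mul, hwrap, add_zero, add_comm]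
    rw [hQ]
    have h1 : ∀ i : ℕ, ((u - 1) g) (i : ZMod (2 * H)) * ((u - 1) g) ((i + H : ℕ) : ZMod (2 * H)) =
        (g ((i + 1 : ℕ) : ZMod (2 * H)) - g (i : ZMod (2 * H))) ^ 2 := by
      intro i
      simp only [LinearMap.sub_apply, End.one_apply, Pi.sub_apply, hua, Nat.cast_add, Nat.cast_one]
      rw [add_right_comm, hgper, hgper]; ring
    rw [Finset.sum_congr rfl fun i _ => h1 i, ← CharTwo.sum_sq]
    rw [Finset.sum_range_sub (fun i : ℕ => g (i : ZMod (2 * H))), Nat.cast_zero]
    rw [show g (H : ZMod (2 * H)) = g 0 by simpa using hgper 0, sub_self]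
    ring
  let Wr : Submodule F R := W.comap R.subtype
  let qW : R ⧸ Wr → F := fun x => Quotient.liftOn' x (fun y => Q (y : ZMod (2 * H) → F)) fun a c hac => by
    have h : a - c ∈ Wr := (Submodule.Quotient.eq Wr).mp (Quotient.sound' hac)
    have e : Q (a : ZMod (2 * H) → F) = Q ((c : ZMod (2 * H) → F) + ((a - c : R) : ZMod (2 * H) → F)) := by simp
    rw [e, QuadraticMap.map_add (⇑Q), hQW ((a - c : R) : ZMod (2 * H) → F) h]
    show Q c + 0 + B c ((a - c : R) : ZMod (2 * H) → F) = Q c
    rw [horth ((a - c : R) : ZMod (2 * H) → F) h _ c.2, add_zero, add_zero]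
  let qQ : QuadraticForm F (R ⧸ Wr) := QuadraticMap.ofPolar qW
    (fun c x => by
      obtain ⟨y, rfl⟩ := Submodule.Quotient.mk_surjective _ x
      exact Q.map_smul c (y : ZMod (2 * H) → F))
    (fun x x' y => by
      obtain ⟨a, rfl⟩ := Submodule.Quotient.mk_surjective _ x
      obtain ⟨a', rfl⟩ := Submodule.Quotient.mk_surjective _ x'
      obtain ⟨c, rfl⟩ := Submodule.Quotient.mk_surjective _ y
      exact Q.polar_add_left (a : ZMod (2 * H) → F) a' c)
    (fun t x y => by
      obtain ⟨a, rfl⟩ := Submodule.Quotient.mk_surjective _ x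
      obtain ⟨c, rfl⟩ := Submodule.Quotient.mk_surjective _ y
      exact Q.polar_smul_left t (a : ZMod (2 * H) → F) c)
  have hinv : ∀ y ∈ R, u y ∈ R := by
    rintro _ ⟨z, rfl⟩
    refine ⟨u z, ?_⟩
    rw [← End.mul_apply, ← End.mul_apply, (((Commute.refl u).sub_left (Commute.one_left u)).pow_left m).eq]
  have hinvW : Wr ≤ Wr.comap (u.restrict hinv) := fun y hy => by
    show ((u - 1) ^ m) (u (y : ZMod (2 * H) → F)) = 0
    rw [← End.mul_apply, (((Commute.refl u).sub_left (Commute.one_left u)).pow_left m).eq, End.mul_apply,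
      show ((u - 1) ^ m) (y : ZMod (2 * H) → F) = 0 from hy, map_zero]
  let ub : End F (R ⧸ Wr) := Wr.mapQ Wr (u.restrict hinv) hinvW
  have hub : ∀ y : R, (ub - 1) (Submodule.Quotient.mk y) =
      Submodule.Quotient.mk ⟨(u - 1) (y : ZMod (2 * H) → F), sub_mem (hinv _ y.2) y.2⟩ := fun y => rfl
  have hubn : IsNilpotent (ub - 1) := by
    refine ⟨2 * H, ?_⟩
    have key : ∀ i, ∀ y : R, ∃ z : R, (z : ZMod (2 * H) → F) = ((u - 1) ^ i : End F (ZMod (2 * H) → F)) (y : ZMod (2 * H) → F) ∧
        ((ub - 1) ^ i : End F (R ⧸ Wr)) (Submodule.Quotient.mk y) = Submodule.Quotient.mk z := by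
      intro i
      induction i with
      | zero => intro y; exact ⟨y, by simp, by simp⟩
      | succ i ih =>
        intro y
        obtain ⟨z, hz, hz'⟩ := ih y
        exact ⟨⟨(u - 1) (z : ZMod (2 * H) → F), sub_mem (hinv _ z.2) z.2⟩, by rw [pow_succ', End.mul_apply, ← hz],
          by rw [pow_succ', End.mul_apply, hz', hub]⟩
    refine Submodule.linearMap_qext _ (LinearMap.ext fun y => ?_)
    obtain ⟨z, hz, hz'⟩ := key (2 * H) y
    show ((ub - 1) ^ (2 * H)) (Submodule.Quotient.mk y) = 0
    rw [hz']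
    have : z = 0 := Subtype.ext (by rw [hz, hnil]; rfl)
    rw [this, Submodule.Quotient.mk_zero]
  have hWrdim : finrank F Wr = m := by
    rw [LinearEquiv.finrank_eq (Submodule.comapSubtypeEquivOfLe hWR), ← hWrange, hrk]
    omega
  have hdimq : finrank F (R ⧸ Wr) = j + j := by
    have h := Wr.finrank_quotient_add_finrank
    rw [hWrdim, show finrank F R = 2 * H - m from hrk m] at h
    omega
  have hubk : finrank F (LinearMap.ker (ub - 1)) ≤ 1 := by
    let K : Submodule F R := (LinearMap.ker ((u - 1) ^ (m + 1))).comap R.subtype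
    have hle : LinearMap.ker (ub - 1) ≤ K.map Wr.mkQ := by
      intro x hx
      obtain ⟨y, rfl⟩ := Submodule.Quotient.mk_surjective _ x
      rw [LinearMap.mem_ker, hub, Submodule.Quotient.mk_eq_zero] at hx
      refine ⟨y, ?_, rfl⟩
      show ((u - 1) ^ (m + 1)) (y : ZMod (2 * H) → F) = 0
      rw [pow_succ, End.mul_apply]
      exact hx
    have hKW : Wr ≤ K := fun y hy => by
      show ((u - 1) ^ (m + 1)) (y : ZMod (2 * H) → F) = 0
      rw [pow_succ', End.mul_apply, show ((u - 1) ^ m) (y : ZMod (2 * H) → F) = 0 from hy, map_zero]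
    let f : ↥K →ₗ[F] (↥R ⧸ Wr) :=
      { toFun := fun y => Wr.mkQ y.1, map_add' := fun a b => map_add Wr.mkQ a.1 b.1, map_smul' := fun c a => map_smul Wr.mkQ c a.1 }
    have h := LinearMap.finrank_range_add_finrank_ker (V := ↥K) (V₂ := ↥R ⧸ Wr) f
    have hrange : LinearMap.range f = K.map Wr.mkQ := by
      ext x
      exact ⟨fun ⟨y, hy⟩ => ⟨y.1, y.2, hy⟩, fun ⟨y, hy, hyx⟩ => ⟨⟨y, hy⟩, hyx⟩⟩
    rw [hrange] at h
    have hker : finrank F ↥(LinearMap.ker f) = m := by
      have hk : (LinearMap.ker f).map K.subtype = Wr := by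
        ext x
        refine ⟨fun ⟨y, hy, hyx⟩ => hyx ▸ (Submodule.Quotient.mk_eq_zero Wr).mp hy, fun hx => ?_⟩
        exact ⟨⟨x, hKW hx⟩, (Submodule.Quotient.mk_eq_zero Wr).mpr hx, rfl⟩
      rw [← Submodule.finrank_map_subtype_eq, hk, hWrdim]
    have hKdim : finrank F K ≤ m + 1 := by
      have h1 : finrank F K ≤ finrank F (LinearMap.ker ((u - 1) ^ (m + 1))) := by
        rw [← Submodule.finrank_map_subtype_eq, Submodule.map_comap_subtype]
        exact Submodule.finrank_mono inf_le_right
      have h2 := finrank_ker_pow (u - 1) (m + 1)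
      rw [hrk, hdim] at h2
      omega
    have := Submodule.finrank_mono hle
    omega
  refine quadType_of_model (Q := qQ) (u := ub) ?_ ?_ hubn ?_
  · have hp : ∀ a c : R, QuadraticMap.polarBilin qQ (Submodule.Quotient.mk a) (Submodule.Quotient.mk c) =
        B (a : ZMod (2 * H) → F) (c : ZMod (2 * H) → F) := fun a c => rfl
    have hndq : ∀ x, (∀ y, QuadraticMap.polarBilin qQ x y = 0) → x = 0 := by
      intro x hx
      obtain ⟨a, rfl⟩ := Submodule.Quotient.mk_surjective _ x
      rw [Submodule.Quotient.mk_eq_zero]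
      show ((u - 1) ^ m) (a : ZMod (2 * H) → F) = 0
      set c := (-((u - 1) * v)) ^ m with hc
      have hzero : c (a : ZMod (2 * H) → F) = 0 := hnd _ fun z => by
        rw [hc, ← adjoint_right_pow hBu hv1 hv2]
        exact hx (Submodule.Quotient.mk ⟨_, LinearMap.mem_range_self _ z⟩)
      rw [hc, neg_mul_pow (commute_sub_one hv1 hv2), End.mul_apply] at hzero
      have hunit : IsUnit ((-1 : End F (ZMod (2 * H) → F)) ^ m * v ^ m) :=
        ((isUnit_one.neg).pow m).mul (IsUnit.pow m (⟨⟨v, u, hv2, hv1⟩, rfl⟩ : IsUnit v))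
      exact ((Module.End.isUnit_iff _).mp hunit).1 (hzero.trans (map_zero _).symm)
    exact ⟨hndq, fun x hx => hndq x fun y => by
      obtain ⟨a, rfl⟩ := Submodule.Quotient.mk_surjective _ x
      obtain ⟨c, rfl⟩ := Submodule.Quotient.mk_surjective _ y
      rw [hp, hBcomm, ← hp]; exact hx _⟩
  · intro x
    obtain ⟨y, rfl⟩ := Submodule.Quotient.mk_surjective _ x
    exact hQu (y : ZMod (2 * H) → F)
  · have h := rankType_single (ub - 1) hubn hubk
    rwa [hdimq] at h

end CharTwo

/-- Building a type out of singles and pairs. -/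
theorem type_of_parts {P : Multiset ℕ → Prop} (ok : ℕ → Prop) (h0 : P 0)
    (hadd : ∀ {μ ν}, P μ → P ν → P (μ + ν)) (hone : ∀ b, 0 < b → ok b → P {b}) (hpair : ∀ b, P ({b} + {b}))
    (μ : Multiset ℕ) (hpos : ∀ b ∈ μ, 0 < b) (hev : ∀ b ∈ μ, ¬ ok b → Even (μ.count b)) : P μ := by
  induction μ using Multiset.strongInductionOn with
  | _ μ ih =>
    rcases Multiset.empty_or_exists_mem μ with rfl | ⟨b, hb⟩
    · exact h0
    obtain ⟨ν, rfl⟩ := Multiset.exists_cons_of_mem hb
    by_cases hok : ok b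
    · rw [← Multiset.singleton_add]
      refine hadd (hone b (hpos b hb) hok) (ih ν (Multiset.lt_cons_self _ _)
        (fun c hc => hpos c (Multiset.mem_cons_of_mem hc)) fun c hc hn => ?_)
      have h := hev c (Multiset.mem_cons_of_mem hc) hn
      rwa [Multiset.count_cons, if_neg fun e : c = b => hn (e ▸ hok), add_zero] at h
    · have h := hev b hb hok
      rw [Multiset.count_cons_self] at h
      have hbν : b ∈ ν := by
        rw [← Multiset.one_le_count_iff_mem]
        rcases h with ⟨t, ht⟩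
        omega
      obtain ⟨ρ, rfl⟩ := Multiset.exists_cons_of_mem hbν
      rw [show b ::ₘ b ::ₘ ρ = ({b} + {b}) + ρ by simp [← Multiset.singleton_add, add_assoc]]
      refine hadd (hpair b) (ih ρ ((Multiset.lt_cons_self _ _).trans (Multiset.lt_cons_self _ _))
        (fun c hc => hpos c (Multiset.mem_cons_of_mem (Multiset.mem_cons_of_mem hc))) fun c hc hn => ?_)
      have h2 := hev c (Multiset.mem_cons_of_mem (Multiset.mem_cons_of_mem hc)) hn
      rw [Multiset.count_cons, Multiset.count_cons, add_assoc] at h2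
      split_ifs at h2 with e
      · exact (Nat.even_add.mp h2).mpr (by simp)
      · simpa using h2

theorem altType_of_parts (μ : Multiset ℕ) (hpos : ∀ b ∈ μ, 0 < b) (hev : ∀ b ∈ μ, Odd b → Even (μ.count b)) :
    AltType F μ := by
  refine type_of_parts Even AltType.zero (fun h1 h2 => h1.add h2) (fun b hb he => ?_) AltType.pair μ hpos
    (fun b hb hn => hev b hb (Nat.not_even_iff_odd.mp hn))
  by_cases h2 : (2 : F) = 0
  · haveI : CharP F 2 := CharTwo.of_one_ne_zero_of_two_eq_zero one_ne_zero h2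
    exact (QuadType.singleTwo hb he).altType
  · exact AltType.single h2 hb he

theorem quadType_of_parts_odd (h2 : (2 : F) ≠ 0) (μ : Multiset ℕ) (hpos : ∀ b ∈ μ, 0 < b)
    (hev : ∀ b ∈ μ, Even b → Even (μ.count b)) : QuadType F μ :=
  type_of_parts Odd QuadType.zero (fun h1 h' => h1.add h') (fun _ _ ho => QuadType.single h2 ho) QuadType.pair μ hpos
    (fun b hb hn => hev b hb (Nat.not_odd_iff_even.mp hn))

theorem quadType_of_parts_two [CharP F 2] (μ : Multiset ℕ) (hpos : ∀ b ∈ μ, 0 < b)
    (hev : ∀ b ∈ μ, Odd b → Even (μ.count b)) : QuadType F μ :=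
  type_of_parts Even QuadType.zero (fun h1 h' => h1.add h') (fun _ hb he => QuadType.singleTwo hb he) QuadType.pair μ
    hpos (fun b hb hn => hev b hb (Nat.not_even_iff_odd.mp hn))

end Models

section JordanMatrix

open Matrix

variable {t : ℕ} (d : Fin t → ℕ)

theorem jordanTypeMatrix_sub_one_apply (x y : (k : Fin t) × Fin (d k)) :
    (Cfsg.jordanTypeMatrix d F - 1 : Matrix _ _ F) x y = if x.1 = y.1 ∧ (x.2 : ℕ) = y.2 + 1 then 1 else 0 := by
  obtain ⟨k, a⟩ := x
  obtain ⟨l, b⟩ := y
  by_cases h : k = l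
  · subst h
    rw [Matrix.sub_apply, Cfsg.jordanTypeMatrix, blockDiagonal'_apply_eq]
    rcases eq_or_ne a b with rfl | hab
    · simp [Cfsg.jordanBlock]
    · have hab' : (a : ℕ) ≠ b := fun e => hab (Fin.ext e)
      simp [Cfsg.jordanBlock, Matrix.one_apply, hab, hab']
  · rw [Matrix.sub_apply, Cfsg.jordanTypeMatrix, blockDiagonal'_apply_ne _ _ _ h]
    simp [Matrix.one_apply, h]

theorem jordanTypeMatrix_pow_mulVec (i : ℕ) : ∀ (w : (k : Fin t) × Fin (d k) → F) (x : (k : Fin t) × Fin (d k)),
    ((Cfsg.jordanTypeMatrix d F - 1) ^ i *ᵥ w) x =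
      if i ≤ (x.2 : ℕ) then w ⟨x.1, ⟨x.2 - i, by omega⟩⟩ else 0 := by
  induction i with
  | zero => intro w x; simp
  | succ i ih =>
    intro w x
    rw [pow_succ', ← Matrix.mulVec_mulVec, Matrix.mulVec, dotProduct]
    obtain ⟨k, a⟩ := x
    simp only [jordanTypeMatrix_sub_one_apply]
    by_cases ha : 0 < (a : ℕ)
    · rw [Finset.sum_eq_single (⟨k, ⟨a - 1, by omega⟩⟩ : (k : Fin t) × Fin (d k))]
      · rw [if_pos ⟨rfl, by simp only; omega⟩, one_mul, ih]
        simp only
        by_cases hi : i + 1 ≤ (a : ℕ)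
        · rw [if_pos (by omega), if_pos hi]
          simp only [show (a : ℕ) - 1 - i = a - (i + 1) by omega]
        · rw [if_neg (by omega), if_neg hi]
      · rintro ⟨l, c⟩ - hne
        rw [if_neg, zero_mul]
        rintro ⟨rfl, hc⟩
        exact hne (congrArg (Sigma.mk k) (Fin.ext (by simp only; simp only at hc; omega)))
      · exact fun hn => absurd (Finset.mem_univ _) hn
    · rw [if_neg (by omega)]
      exact Finset.sum_eq_zero fun z _ => by rw [if_neg (fun hz => by omega), zero_mul]

theorem isNilpotent_jordanTypeMatrix : IsNilpotent (Cfsg.jordanTypeMatrix d F - 1) := by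
  refine ⟨Finset.univ.sup d + 1, Matrix.toLin'.injective (LinearMap.ext fun w => funext fun x => ?_)⟩
  rw [Matrix.toLin'_apply, jordanTypeMatrix_pow_mulVec, map_zero, LinearMap.zero_apply, Pi.zero_apply, if_neg]
  have := x.2.isLt
  have := Finset.le_sup (f := d) (Finset.mem_univ x.1)
  omega

/-- The rank sequence of the Jordan matrix. -/
theorem rank_jordanTypeMatrix (i : ℕ) :
    ((Cfsg.jordanTypeMatrix d F - 1) ^ i).rank = ((Finset.univ.val.map d).map fun b => b - i).sum := by
  classical
  let S := {x : (k : Fin t) × Fin (d k) // i ≤ (x.2 : ℕ)}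
  let up : (S → F) →ₗ[F] ((k : Fin t) × Fin (d k) → F) :=
    { toFun := fun g x => if h : i ≤ (x.2 : ℕ) then g ⟨x, h⟩ else 0
      map_add' := fun g g' => funext fun x => by simp only [Pi.add_apply]; split_ifs <;> simp
      map_smul' := fun c g => funext fun x => by simp only [Pi.smul_apply, RingHom.id_apply]; split_ifs <;> simp }
  have hup : Function.Injective up := fun g g' h => funext fun x => by
    have := congrFun h x.1
    simpa [up, x.2] using this
  have hrange : LinearMap.range ((Cfsg.jordanTypeMatrix d F - 1) ^ i).mulVecLin = LinearMap.range up := by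
    ext y
    constructor
    · rintro ⟨w, rfl⟩
      refine ⟨fun x => w ⟨x.1.1, ⟨x.1.2 - i, by omega⟩⟩, funext fun x => ?_⟩
      rw [Matrix.mulVecLin_apply, jordanTypeMatrix_pow_mulVec]
      simp only [up, LinearMap.coe_mk, AddHom.coe_mk]
      split_ifs <;> rfl
    · rintro ⟨g, rfl⟩
      refine ⟨fun x => if h : (x.2 : ℕ) + i < d x.1 then g ⟨⟨x.1, ⟨x.2 + i, h⟩⟩, Nat.le_add_left _ _⟩ else 0,
        funext fun x => ?_⟩
      rw [Matrix.mulVecLin_apply, jordanTypeMatrix_pow_mulVec]
      simp only [up, LinearMap.coe_mk, AddHom.coe_mk]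
      by_cases h : i ≤ (x.2 : ℕ)
      · rw [if_pos h, dif_pos h, dif_pos (by omega)]
        exact congrArg g (Subtype.ext (congrArg (Sigma.mk x.1) (Fin.ext (by simp only; omega))))
      · rw [if_neg h, dif_neg h]
  rw [Matrix.rank, hrange, LinearMap.finrank_range_of_inj hup, Module.finrank_fintype_fun_eq_card,
    Multiset.map_map]
  let e : S ≃ (k : Fin t) × Fin (d k - i) :=
    { toFun := fun x => ⟨x.1.1, ⟨x.1.2 - i, by have := x.2; omega⟩⟩
      invFun := fun x => ⟨⟨x.1, ⟨x.2 + i, by omega⟩⟩, Nat.le_add_left _ _⟩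
      left_inv := fun x => Subtype.ext (congrArg (Sigma.mk x.1.1) (Fin.ext (Nat.sub_add_cancel x.2)))
      right_inv := fun x => congrArg (Sigma.mk x.1) (Fin.ext (by simp)) }
  rw [Fintype.card_congr e, Fintype.card_sigma]
  simp only [Fintype.card_fin]
  rfl

theorem isNilpotent_of_isConj {ι : Type*} [Fintype ι] [DecidableEq ι] {J A : Matrix ι ι F} (h : IsConj J A)
    (hJ : IsNilpotent (J - 1)) : IsNilpotent (A - 1) ∧ ∀ i, ((A - 1) ^ i).rank = ((J - 1) ^ i).rank := by
  obtain ⟨c, hc⟩ := h
  have h1 : SemiconjBy (c : Matrix ι ι F) (J - 1) (A - 1) := hc.sub_right (SemiconjBy.one_right _)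
  have hdet : IsUnit (c : Matrix ι ι F).det := (Matrix.isUnit_iff_isUnit_det _).mp c.isUnit
  refine ⟨?_, fun i => ?_⟩
  · obtain ⟨k, hk⟩ := hJ
    have h2 := (h1.pow_right k).eq
    rw [hk, mul_zero] at h2
    exact ⟨k, (Units.mul_left_eq_zero c).mp h2.symm⟩
  · rw [← Matrix.rank_mul_eq_left_of_isUnit_det (c : Matrix ι ι F) ((A - 1) ^ i) hdet, ← (h1.pow_right i).eq,
      Matrix.rank_mul_eq_right_of_isUnit_det _ _ hdet]

/-- A matrix similar to the Jordan matrix has its type. -/
theorem rankType_of_isConj {ι : Type*} [Fintype ι] [DecidableEq ι] (e : ((k : Fin t) × Fin (d k)) ≃ ι)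
    {A : Matrix ι ι F} (h : IsConj (Matrix.reindex e e (Cfsg.jordanTypeMatrix d F)) A) :
    IsNilpotent (Matrix.toLin' A - 1) ∧ RankType (Matrix.toLin' A - 1) (Finset.univ.val.map d) := by
  let R := Matrix.reindexAlgEquiv F F e
  have hR : Matrix.reindex e e (Cfsg.jordanTypeMatrix d F) - 1 = R (Cfsg.jordanTypeMatrix d F - 1) := by
    rw [map_sub, map_one]; rfl
  obtain ⟨hn, hr⟩ := isNilpotent_of_isConj h (hR ▸ (isNilpotent_jordanTypeMatrix d).map R)
  have hA : Matrix.toLin' A - 1 = Matrix.toLinAlgEquiv' (A - 1) := by rw [map_sub, map_one]; rfl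
  rw [hA]
  refine ⟨hn.map _, fun i => ?_⟩
  rw [← map_pow]
  show ((A - 1) ^ i).rank = _
  rw [hr, hR, ← map_pow]
  show (Matrix.reindex e e _).rank = _
  rw [Matrix.rank_reindex, rank_jordanTypeMatrix]

/-- A matrix of the same type is similar to the Jordan matrix. -/
theorem isConj_of_rankType {ι : Type*} [Fintype ι] [DecidableEq ι] (e : ((k : Fin t) × Fin (d k)) ≃ ι)
    {A : Matrix ι ι F} (hn : IsNilpotent (Matrix.toLin' A - 1))
    (hr : RankType (Matrix.toLin' A - 1) (Finset.univ.val.map d)) :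
    IsConj (Matrix.reindex e e (Cfsg.jordanTypeMatrix d F)) A := by
  let R := Matrix.reindexAlgEquiv F F e
  have hR : Matrix.reindex e e (Cfsg.jordanTypeMatrix d F) - 1 = R (Cfsg.jordanTypeMatrix d F - 1) := by
    rw [map_sub, map_one]; rfl
  have hA : Matrix.toLin' A - 1 = Matrix.toLinAlgEquiv' (A - 1) := by rw [map_sub, map_one]; rfl
  rw [hA] at hn hr
  have hn' : IsNilpotent (A - 1) := (IsNilpotent.map_iff Matrix.toLinAlgEquiv'.injective).mp hn
  have hJ : IsNilpotent (Matrix.reindex e e (Cfsg.jordanTypeMatrix d F) - 1) :=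
    hR ▸ (isNilpotent_jordanTypeMatrix d).map R
  obtain ⟨g, hg⟩ := CfsgLib.Classes.isConj_of_rank_pow_eq hJ hn' fun i => by
    have h1 := hr i
    rw [← map_pow] at h1
    rw [hR, ← map_pow]
    show (Matrix.reindex e e _).rank = _
    rw [Matrix.rank_reindex, rank_jordanTypeMatrix, ← h1]
    rfl
  refine ⟨g, ?_⟩
  show (g : Matrix ι ι F) * _ = _ * (g : Matrix ι ι F)
  rwa [mul_sub, sub_mul, mul_one, one_mul, sub_left_inj] at hg

theorem count_map_univ (j : ℕ) :
    (Finset.univ.val.map d).count j = (Finset.univ.filter (fun k : Fin t => d k = j)).card := by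
  rw [Multiset.count_map]
  simp [Finset.card_def, Finset.filter_val, eq_comm]

end JordanMatrix

end CfsgLib.Generators.UnipotentTypes
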